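import Mathlib
import Cfsg.Agent.Lib.SchurLocal.Basic

/-!
# Tools for explicit multipliers

* the primes whose square does not divide the order do not divide the order of a kernel element;
* a stem extension lifted to the universe of the base;
* a surjection from a cyclic group of order two.
-/

set_option autoImplicit false

namespace Cfsg.Agent.Lib.SchurLocal

open Cfsg Cfsg.Agent.Lib.KnownSimple.Schur
open scoped commutatorElement

universe u v w

/-- A prime whose square does not divide the order of the base does not divide the order of a kernel element. -/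
theorem not_dvd_orderOf_ker {Γ : Type*} {G : Type*} [Group Γ] [Group G] [Finite Γ] [Finite G] {σ : Γ →* G}
    (hσ : IsStemExtension σ) {a : Γ} (ha : a ∈ σ.ker) {ℓ : ℕ} (hℓ : ℓ.Prime) (h : ¬ ℓ ^ 2 ∣ Nat.card G) :
    ¬ ℓ ∣ orderOf a := by
  classical
  intro hdvd
  haveI : Fact ℓ.Prime := ⟨hℓ⟩
  obtain ⟨hs, hcen, hcomm⟩ := hσ
  have hbo : orderOf (a ^ (orderOf a / ℓ)) = ℓ := orderOf_pow_orderOf_div (orderOf_pos a).ne' hdvd
  set b := a ^ (orderOf a / ℓ) with hb
  have hbk : b ∈ σ.ker := σ.ker.pow_mem ha _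
  have hbc : b ∈ Subgroup.center Γ := hcen hbk
  have hbd : b ∈ commutator Γ := hcomm hbk
  have hzp : IsPGroup ℓ (Subgroup.zpowers b) := by
    rw [IsPGroup.iff_card, Nat.card_zpowers, hbo]
    exact ⟨1, (pow_one ℓ).symm⟩
  obtain ⟨Q₀, hQ₀⟩ := hzp.exists_le_sylow
  have hb0 : b ∈ (Q₀ : Subgroup Γ) := hQ₀ (Subgroup.mem_zpowers b)
  have h3 := mem_commutator_sylow Q₀ hbc hbd hb0
  haveI := abelian_of_not_sq_dvd hcen Q₀ h
  have h4 : commutator (Q₀ : Subgroup Γ) = ⊥ := by
    rw [eq_bot_iff, commutator_def, Subgroup.commutator_le]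
    intro x _ y _
    rw [Subgroup.mem_bot, commutatorElement_eq_one_iff_mul_comm]
    exact mul_comm' x y
  rw [h4, Subgroup.mem_bot] at h3
  have h5 : b = 1 := congrArg Subtype.val h3
  rw [h5, orderOf_one] at hbo
  exact hℓ.one_lt.ne hbo

/-- A finite stem extension in some universe gives one in the universe of the base. -/
theorem lower_ulift {G : Type u} [Group G] {Γ₀ : Type v} [Group Γ₀] [Finite Γ₀] {A : Type w} [CommGroup A]
    (σ₀ : Γ₀ →* G) (hσ : IsStemExtension σ₀) (e : σ₀.ker ≃* A) :
    ∃ (Γ : Type (max u v)) (_ : Group Γ) (_ : Finite Γ) (σ : Γ →* G), IsStemExtension σ ∧ Nonempty (σ.ker ≃* A) := by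
  let Γ : Type (max u v) := ULift.{u} Γ₀
  let u₀ : Γ ≃* Γ₀ := MulEquiv.ulift
  let σ : Γ →* G := σ₀.comp u₀.toMonoidHom
  have hk : ∀ x : Γ, x ∈ σ.ker ↔ u₀ x ∈ σ₀.ker := fun x => Iff.rfl
  refine ⟨Γ, inferInstance, Finite.of_equiv Γ₀ u₀.symm.toEquiv, σ, ⟨hσ.1.comp u₀.surjective, ?_, ?_⟩, ⟨?_⟩⟩
  · intro x hx
    rw [Subgroup.mem_center_iff]
    intro g
    apply u₀.injective
    rw [map_mul, map_mul]
    exact Subgroup.mem_center_iff.1 (hσ.2.1 hx) (u₀ g)
  · intro x hx
    have h1 := hσ.2.2 ((hk x).1 hx)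
    have h2 : (commutator Γ₀).comap u₀.toMonoidHom = commutator Γ := by
      have h3 : (commutator Γ).map u₀.toMonoidHom = commutator Γ₀ := by
        rw [commutator_def, commutator_def, Subgroup.map_commutator, Subgroup.map_top_of_surjective _ u₀.surjective]
      rw [← h3, Subgroup.comap_map_eq_self_of_injective u₀.injective]
    rw [← h2]
    exact h1
  · refine MulEquiv.trans ?_ e
    exact
      { toFun := fun x => ⟨u₀ x.1, x.2⟩
        invFun := fun x => ⟨u₀.symm x.1, by
          show σ₀ (u₀ (u₀.symm x.1)) = 1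
          rw [u₀.apply_symm_apply]
          exact x.2⟩
        left_inv := fun x => Subtype.ext (u₀.symm_apply_apply x.1)
        right_inv := fun x => Subtype.ext (u₀.apply_symm_apply x.1)
        map_mul' := fun x y => Subtype.ext (map_mul u₀ x.1 y.1) }

/-- A surjection from the cyclic group of order two onto a kernel with at most one non-trivial element. -/
theorem exists_surj_two {Γ : Type*} [Group Γ] (H : Subgroup Γ) {v : Γ} (hv : v ∈ H) (hv2 : v ^ 2 = 1)
    (hall : ∀ x ∈ H, x = 1 ∨ x = v) : ∃ π : Multiplicative (ZMod 2) →* H, Function.Surjective π := by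
  classical
  let f : Multiplicative (ZMod 2) →* H :=
    { toFun := fun a => if Multiplicative.toAdd a = 0 then 1 else ⟨v, hv⟩
      map_one' := by simp
      map_mul' := by
        have hvv : (⟨v, hv⟩ : H) * ⟨v, hv⟩ = 1 := Subtype.ext (by
          show v * v = 1
          rw [← pow_two, hv2])
        intro a b
        induction a using Multiplicative.rec with | _ a => ?_
        induction b using Multiplicative.rec with | _ b => ?_
        fin_cases a <;> fin_cases b <;> simp [hvv] <;> first | rfl | skip }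
  refine ⟨f, ?_⟩
  rintro ⟨x, hx⟩
  rcases hall x hx with h | h
  · subst h
    exact ⟨1, map_one f⟩
  · subst h
    refine ⟨Multiplicative.ofAdd 1, ?_⟩
    show (if Multiplicative.toAdd (Multiplicative.ofAdd (1 : ZMod 2)) = 0 then (1 : H) else (⟨_, hv⟩ : H)) = _
    rw [if_neg (by simp)]

end Cfsg.Agent.Lib.SchurLocal
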