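import Mathlib
import Cfsg.Agent.Lib.SchurLocal.A7Cover
import Cfsg.Agent.Lib.DoubleCover.A8b
import Cfsg.Agent.Lib.Cl.DihMult
import Cfsg.Agent.Lib.SchurLocal.Tools

/-!
# The multipliers of the alternating groups of degree six and seven
-/

set_option autoImplicit false

namespace Cfsg.Agent.Lib.SchurLocal.A67

open Cfsg Cfsg.Agent.Lib.KnownSimple.Schur DihedralGroup Equiv Equiv.Perm
open Cfsg.Agent.Lib.SchurLocal.Cover
open scoped commutatorElement

section covers

open Cfsg.Agent.Lib.DoubleCover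

theorem isCov2 : IsCov covPi zC 2 where
  surj := covPi_surj
  ord := by
    apply orderOf_eq_prime (p := 2)
    · rw [pow_two]
      exact zC_sq
    · exact zC_ne
  ker := by
    intro c
    constructor
    · intro h
      rcases ker_eq h with h1 | h1
      · rw [h1]
        exact Subgroup.one_mem _
      · rw [h1]
        exact Subgroup.mem_zpowers _
    · rintro ⟨j, rfl⟩
      have h1 : covPi zC = 1 := by
        apply Subtype.ext
        rfl
      show covPi (zC ^ j) = 1
      rw [map_zpow, h1, one_zpow]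
  cen := fun c => (zC_mul c).symm

/-- The second lift. -/
def vZ : ↥Cov := ⟨_, liftU_mem (i := 0) (j := 2) (k := 1) (l := 3) (by decide) (by decide) (swap_mem (by decide) (by decide))⟩

theorem comm_uv : ⁅sqZ, vZ⁆ = zC := by
  have h : sqZ * vZ = zC * (vZ * sqZ) := by
    apply Subtype.ext
    apply Prod.ext
    · apply Subtype.ext
      show (swap (0 : Fin 8) 1 * swap 2 3) * (swap (0 : Fin 8) 2 * swap 1 3)
        = 1 * ((swap (0 : Fin 8) 2 * swap 1 3) * (swap (0 : Fin 8) 1 * swap 2 3))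
      decide
    · apply Units.ext
      show (u 0 1 * u 2 3) * (u 0 2 * u 1 3) = (-1) * ((u 0 2 * u 1 3) * (u 0 1 * u 2 3))
      decide +kernel
  rw [commutatorElement_def, h]
  group

theorem covPi_sqZ_fix : ∀ i : Fin 8, 4 ≤ i.val → ((covPi sqZ : alternatingGroup (Fin 8)) : Perm (Fin 8)) i = i := by
  show ∀ i : Fin 8, 4 ≤ i.val → ((swap (0 : Fin 8) 1 * swap 2 3 : Perm (Fin 8))) i = i
  decide

theorem covPi_vZ_fix : ∀ i : Fin 8, 4 ≤ i.val → ((covPi vZ : alternatingGroup (Fin 8)) : Perm (Fin 8)) i = i := by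
  show ∀ i : Fin 8, 4 ≤ i.val → ((swap (0 : Fin 8) 2 * swap 1 3 : Perm (Fin 8))) i = i
  decide

/-- A double cover of the alternating group of degree at least four and at most eight. -/
theorem cover2 {n : ℕ} (h4 : 4 ≤ n) (h8 : n ≤ 8) :
    ∃ (C : Type) (_ : Group C) (_ : Finite C) (σ : C →* alternatingGroup (Fin n)) (z u v : C),
      IsCov σ z 2 ∧ ⁅u, v⁆ = z := by
  have hu : covPi sqZ ∈ (embA h8).range := mem_range_embA h8 (fun i hi => covPi_sqZ_fix i (by omega))
  have hv : covPi vZ ∈ (embA h8).range := mem_range_embA h8 (fun i hi => covPi_vZ_fix i (by omega))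
  obtain ⟨σ, z', u', v', h1, h2⟩ := isCov2.pull (embA h8) (embA_inj h8) hu hv comm_uv
  exact ⟨_, inferInstance, inferInstance, σ, z', u', v', h1, h2⟩

end covers

/-- A triple cover of the alternating group of degree six or seven. -/
theorem cover3 {n : ℕ} (h6 : 6 ≤ n) (h7 : n ≤ 7) :
    ∃ (C : Type) (_ : Group C) (_ : Finite C) (σ : C →* alternatingGroup (Fin n)) (z u v : C),
      IsCov σ z 3 ∧ ⁅u, v⁆ = z := by
  have aux : ∀ g : alternatingGroup (Fin 7), g.1 6 = 6 → g ∈ (embA h7).range := by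
    intro g hg
    apply mem_range_embA h7
    intro i hi
    have : i = 6 := by
      apply Fin.ext
      have := i.2
      show i.val = 6
      omega
    rw [this]
    exact hg
  obtain ⟨σ, z', u', v', h1, h2⟩ := A7C.isCov.pull (embA h7) (embA_inj h7) (aux _ A7C.cu_fix) (aux _ A7C.cv_fix) A7C.comm_eq
  haveI : Finite A7C.K0 := inferInstance
  exact ⟨_, inferInstance, inferInstance, σ, z', u', v', h1, h2⟩

section upper

variable {G Γ : Type*} [Group G] [Group Γ]

/-- The commutator subgroup of a central extension of a group with an inverted generator. -/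
theorem commutator_le_of_dih {D : Type*} [Group D] (τ : Γ →* D) (hs : Function.Surjective τ) (hc : τ.ker ≤ Subgroup.center Γ)
    {A B : Γ} (hgen : Subgroup.closure {τ A, τ B} = ⊤) (hz : τ (A * (B * A * B⁻¹)) = 1) :
    commutator Γ ≤ Subgroup.zpowers (A⁻¹ * (B * A * B⁻¹)) := by
  apply Cfsg.Agent.Lib.Cl.DihMult.commutator_le_zpowers τ.ker hc (MonoidHom.mem_ker.2 hz) _
  rw [eq_top_iff]
  intro g _
  have hg : τ g ∈ Subgroup.closure {τ A, τ B} := by rw [hgen]; trivial
  have himg : ({τ A, τ B} : Set D) = τ '' {A, B} := by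
    rw [Set.image_pair]
  rw [himg, ← MonoidHom.map_closure] at hg
  obtain ⟨h, hh, hhg⟩ := hg
  have h1 : h⁻¹ * g ∈ τ.ker := by
    rw [MonoidHom.mem_ker, map_mul, map_inv, hhg, inv_mul_cancel]
  have h2 : g = h * (h⁻¹ * g) := by group
  rw [h2]
  refine Subgroup.mul_mem _ ?_ ?_
  · exact (Subgroup.closure_mono Set.subset_union_left) hh
  · exact Subgroup.subset_closure (Or.inr h1)

/-- The part of the kernel of order prime to the index of a dihedral subgroup of order eight. -/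
theorem two_part [Finite Γ] (σ : Γ →* G) (hσ : IsStemExtension σ) (ρ : DihedralGroup 4 →* G) (hρ : Function.Injective ρ) :
    ∃ v : Γ, v ^ 2 = 1 ∧ σ v = 1 ∧ ∀ z, σ z = 1 → Nat.Coprime ρ.range.index (orderOf z) → z = 1 ∨ z = v := by
  classical
  obtain ⟨hs, hcen, hcomm⟩ := id hσ
  let R : Subgroup G := ρ.range
  let eR : DihedralGroup 4 ≃* R := MonoidHom.ofInjective hρ
  let Q : Subgroup Γ := R.comap σ
  have hQi : Q.index = R.index := Subgroup.index_comap_of_surjective _ hs
  let τ : Q →* DihedralGroup 4 := eR.symm.toMonoidHom.comp (σ.subgroupComap R)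
  have hτs : Function.Surjective τ :=
    eR.symm.surjective.comp (σ.subgroupComap_surjective_of_surjective R hs)
  have hτk : ∀ x : Q, τ x = 1 ↔ σ (x : Γ) = 1 := by
    intro x
    constructor
    · intro h
      have h3 : (σ.subgroupComap R) x = 1 := eR.symm.injective (by rw [map_one]; exact h)
      exact congrArg Subtype.val h3
    · intro h
      have h3 : (σ.subgroupComap R) x = 1 := Subtype.ext h
      show eR.symm _ = 1
      rw [h3, map_one]
  have hmem : ∀ z, σ z = 1 → z ∈ Q := by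
    intro z hz
    show σ z ∈ R
    rw [hz]
    exact R.one_mem
  have hτc : τ.ker ≤ Subgroup.center Q := by
    intro x hx
    have h6 := hcen ((hτk x).1 hx)
    rw [Subgroup.mem_center_iff]
    intro y
    apply Subtype.ext
    exact Subgroup.mem_center_iff.1 h6 y
  obtain ⟨A, hA⟩ := hτs (r 1)
  obtain ⟨B, hB⟩ := hτs (sr 0)
  have hgen : Subgroup.closure {τ A, τ B} = ⊤ := by
    rw [hA, hB]
    exact Cfsg.Agent.Lib.Cl.DihMult.closure_dih
  have hz0 : τ (A * (B * A * B⁻¹)) = 1 := by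
    simp only [map_mul, map_inv, hA, hB]
    exact Cfsg.Agent.Lib.Cl.DihMult.dih_z
  have hcle := commutator_le_of_dih τ hτs hτc hgen hz0
  obtain ⟨w, hw⟩ : ∃ w, w = A⁻¹ * (B * A * B⁻¹) := ⟨_, rfl⟩
  rw [← hw] at hcle
  have hwτ : τ w = r (-2) := by
    rw [hw]
    simp only [map_mul, map_inv, hA, hB]
    exact Cfsg.Agent.Lib.Cl.DihMult.dih_w
  have hw4 : w ^ 4 = 1 := by
    rw [hw]
    apply Cfsg.Agent.Lib.Cl.DihMult.w_pow 4 (hτc (MonoidHom.mem_ker.2 hz0))
    have h1 : A ^ 4 ∈ τ.ker := by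
      rw [MonoidHom.mem_ker, map_pow, hA]
      exact r_one_pow_n
    have := Subgroup.mem_center_iff.1 (hτc h1) B
    rw [this]
    group
  have hw2 : τ (w ^ 2) = 1 := by
    rw [map_pow, hwτ]
    decide
  refine ⟨(w : Γ) ^ 2, ?_, ?_, ?_⟩
  · have : (w ^ 2) ^ 2 = 1 := by
      rw [← pow_mul]
      exact hw4
    have h8 := congrArg Subtype.val this
    simpa using h8
  · have := (hτk _).1 hw2
    simpa using this
  · intro z hz hcop
    have h7 := Cfsg.Agent.Lib.SchurLocal.mem_commutator_of_coprime Q (a := z)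
        (by rw [hQi]; exact hcop) (hcen hz) (hcomm hz) (hmem z hz)
    have h8 := hcle h7
    rw [← mem_powers_iff_mem_zpowers] at h8
    obtain ⟨k, hk⟩ := h8
    have hk' : (w ^ k : Q) = ⟨z, hmem z hz⟩ := hk
    have hz' : ((w : Γ)) ^ k = z := by
      have := congrArg Subtype.val hk'
      simpa using this
    have hkτ : τ w ^ k = 1 := by
      rw [← map_pow, hk']
      exact (hτk _).2 hz
    rw [hwτ] at hkτ
    have hpar : k % 4 = 0 ∨ k % 4 = 2 := by
      have h9 : ∀ j : ℕ, j < 4 → (r (-2) : DihedralGroup 4) ^ j = 1 → j = 0 ∨ j = 2 := by decide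
      have h10 : (r (-2) : DihedralGroup 4) ^ 4 = 1 := by decide
      have h11 : (r (-2) : DihedralGroup 4) ^ (k % 4) = 1 := by
        rw [← hkτ]
        conv_rhs => rw [← Nat.div_add_mod k 4, pow_add, pow_mul, h10, one_pow, one_mul]
      exact h9 _ (Nat.mod_lt _ (by norm_num)) h11
    have hw4' : (w : Γ) ^ 4 = 1 := by
      have h8 := congrArg Subtype.val hw4
      simpa using h8
    have hz2 : (w : Γ) ^ (k % 4) = z := by
      rw [← hz']
      conv_rhs => rw [← Nat.div_add_mod k 4, pow_add, pow_mul, hw4', one_pow, one_mul]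
    rcases hpar with h | h
    · left
      rw [← hz2, h, pow_zero]
    · right
      rw [← hz2, h]

/-- The part of the kernel of order prime to the index of a subgroup with two commuting generators, one of order three. -/
theorem three_part [Finite Γ] (σ : Γ →* G) (hσ : IsStemExtension σ) (R : Subgroup G) {x y : G} (hx : x ∈ R) (hy : y ∈ R)
    (hxy : x * y = y * x) (hx3 : x ^ 3 = 1) (hR : ∀ g ∈ R, ∃ i j : ℕ, g = x ^ i * y ^ j) :
    ∃ c : Γ, c ^ 3 = 1 ∧ σ c = 1 ∧ ∀ z, σ z = 1 → Nat.Coprime R.index (orderOf z) → z ∈ Subgroup.zpowers c := by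
  classical
  obtain ⟨hs, hcen, hcomm⟩ := id hσ
  obtain ⟨X, hX⟩ := hs x
  obtain ⟨Y, hY⟩ := hs y
  have hcσ : σ ⁅X, Y⁆ = 1 := by
    rw [map_commutatorElement, hX, hY, commutatorElement_eq_one_iff_mul_comm]
    exact hxy
  obtain ⟨c, hc⟩ : ∃ c, c = ⁅X, Y⁆ := ⟨_, rfl⟩
  rw [← hc] at hcσ
  have hcc : ∀ g, g * c = c * g := Subgroup.mem_center_iff.1 (hcen hcσ)
  have hXY : X * Y = c * Y * X := by
    rw [hc, commutatorElement_def]
    group
  have hc3 : c ^ 3 = 1 := by
    have h3 : X ^ 3 ∈ σ.ker := by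
      rw [MonoidHom.mem_ker, map_pow, hX, hx3]
    have h4 : Y * X ^ 3 = X ^ 3 * Y := Subgroup.mem_center_iff.1 (hcen h3) Y
    have key : ∀ k : ℕ, X ^ k * Y = c ^ k * Y * X ^ k := by
      intro k
      induction k with
      | zero => simp
      | succ k ih =>
        calc X ^ (k + 1) * Y = X ^ k * (X * Y) := by rw [pow_succ, mul_assoc]
          _ = X ^ k * (c * (Y * X)) := by rw [hXY, mul_assoc]
          _ = (X ^ k * c) * (Y * X) := by rw [mul_assoc]
          _ = c * (X ^ k * (Y * X)) := by rw [hcc, mul_assoc]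
          _ = c * ((X ^ k * Y) * X) := by rw [mul_assoc]
          _ = c * ((c ^ k * Y * X ^ k) * X) := by rw [ih]
          _ = c ^ (k + 1) * Y * X ^ (k + 1) := by
            rw [pow_succ' c, pow_succ X]
            simp only [mul_assoc]
    have h5 := key 3
    rw [← h4] at h5
    have h6 : (c ^ 3 * Y) * X ^ 3 = Y * X ^ 3 := h5.symm
    have h7 : c ^ 3 * Y = Y := mul_right_cancel h6
    exact mul_eq_right.1 h7
  refine ⟨c, hc3, hcσ, ?_⟩
  intro z hz hcop
  let Q : Subgroup Γ := R.comap σ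
  have hQi : Q.index = R.index := Subgroup.index_comap_of_surjective _ hs
  have hmem : ∀ z, σ z = 1 → z ∈ Q := by
    intro z hz
    show σ z ∈ R
    rw [hz]
    exact R.one_mem
  have hXQ : X ∈ Q := by
    show σ X ∈ R
    rw [hX]
    exact hx
  have hYQ : Y ∈ Q := by
    show σ Y ∈ R
    rw [hY]
    exact hy
  have h7 := Cfsg.Agent.Lib.SchurLocal.mem_commutator_of_coprime Q (a := z)
        (by rw [hQi]; exact hcop) (hcen hz) (hcomm hz) (hmem z hz)
  let c' : Q := ⟨c, hmem c hcσ⟩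
  have hc'c : ∀ g : Q, g * c' = c' * g := fun g => Subtype.ext (hcc g.1)
  haveI hN : (Subgroup.zpowers c').Normal := by
    constructor
    rintro n ⟨j, rfl⟩ g
    have : ∀ g : Q, g * (c' ^ j) = (c' ^ j) * g := by
      intro g
      have h9 : Commute g c' := hc'c g
      exact (h9.zpow_right j).eq
    show g * (c' ^ j) * g⁻¹ ∈ _
    rw [this g]
    group
    exact Subgroup.mem_zpowers_iff.2 ⟨j, rfl⟩
  let X' : Q := ⟨X, hXQ⟩
  let Y' : Q := ⟨Y, hYQ⟩
  let K : Set Q := {q | σ q.1 = 1}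
  have hcenK : ∀ k ∈ K, ∀ g : Q, g * k = k * g := by
    intro k hk g
    exact Subtype.ext (Subgroup.mem_center_iff.1 (hcen hk) g.1)
  have hgen : Subgroup.closure ({X', Y'} ∪ K) = ⊤ := by
    rw [eq_top_iff]
    intro g _
    obtain ⟨i, j, hij⟩ := hR (σ g.1) g.2
    have h1 : (X' ^ i * Y' ^ j)⁻¹ * g ∈ K := by
      show σ (((X' ^ i * Y' ^ j)⁻¹ * g : Q) : Γ) = 1
      have : (((X' ^ i * Y' ^ j)⁻¹ * g : Q) : Γ) = (X ^ i * Y ^ j)⁻¹ * g.1 := by
        simp [X', Y']
      rw [this, map_mul, map_inv, map_mul, map_pow, map_pow, hX, hY, hij]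
      group
    have h2 : g = X' ^ i * Y' ^ j * ((X' ^ i * Y' ^ j)⁻¹ * g) := by group
    rw [h2]
    refine Subgroup.mul_mem _ (Subgroup.mul_mem _ ?_ ?_) ?_
    · have hm : X' ∈ Subgroup.closure ({X', Y'} ∪ K) := Subgroup.subset_closure (Or.inl (Or.inl rfl))
      exact Subgroup.pow_mem _ hm _
    · have hm : Y' ∈ Subgroup.closure ({X', Y'} ∪ K) := Subgroup.subset_closure (Or.inl (Or.inr rfl))
      exact Subgroup.pow_mem _ hm _
    · exact Subgroup.subset_closure (Or.inr h1)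
  have hle : commutator Q ≤ Subgroup.zpowers c' := by
    apply Cfsg.Agent.Lib.SchurLocal.commutator_le_of_closure hgen
    have hXY' : ⁅X', Y'⁆ = c' := Subtype.ext (by
      show ⁅X, Y⁆ = c
      rw [hc])
    have hone : ∀ a b : Q, a * b = b * a → ⁅a, b⁆ ∈ Subgroup.zpowers c' := by
      intro a b h
      rw [commutatorElement_eq_one_iff_mul_comm.2 h]
      exact Subgroup.one_mem _
    rintro a (ha | ha) b (hb | hb)
    · rcases ha with rfl | rfl <;> rcases hb with rfl | rfl
      · exact hone _ _ rfl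
      · rw [hXY']
        exact Subgroup.mem_zpowers _
      · rw [← commutatorElement_inv, hXY']
        exact Subgroup.inv_mem _ (Subgroup.mem_zpowers _)
      · exact hone _ _ rfl
    · exact hone _ _ (hcenK b hb a)
    · exact hone _ _ (hcenK a ha b).symm
    · exact hone _ _ (hcenK b hb a)
  have h8 := hle h7
  obtain ⟨j, hj⟩ := h8
  refine ⟨j, ?_⟩
  have h9 := congrArg Subtype.val hj
  simpa using h9

/-- **Upper bound.** -/
theorem upper [Finite G] [Finite Γ] (σ : Γ →* G) (hσ : IsStemExtension σ)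
    (hN : ∀ ℓ : ℕ, ℓ.Prime → ℓ ≠ 2 → ℓ ≠ 3 → ¬ ℓ ^ 2 ∣ Nat.card G)
    (ρ : DihedralGroup 4 →* G) (hρ : Function.Injective ρ) (hodd : ¬ 2 ∣ ρ.range.index)
    (R : Subgroup G) {x y : G} (hx : x ∈ R) (hy : y ∈ R) (hxy : x * y = y * x) (hx3 : x ^ 3 = 1)
    (hR : ∀ g ∈ R, ∃ i j : ℕ, g = x ^ i * y ^ j) (h3 : ¬ 3 ∣ R.index) :
    ∃ π : Multiplicative (ZMod 6) →* σ.ker, Function.Surjective π := by
  classical
  obtain ⟨v, hv2, hv1, hvall⟩ := two_part σ hσ ρ hρ
  obtain ⟨c, hc3, hc1, hcall⟩ := three_part σ hσ R hx hy hxy hx3 hR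
  obtain ⟨hs, hcen, hcomm⟩ := id hσ
  have hvc : Commute v c := Subgroup.mem_center_iff.1 (hcen hc1) v
  have hw : v * c ∈ σ.ker := by
    rw [MonoidHom.mem_ker, map_mul, hv1, hc1, one_mul]
  have hw6 : (v * c) ^ 6 = 1 := by
    rw [hvc.mul_pow, show 6 = 2 * 3 by norm_num, pow_mul, hv2, one_pow, one_mul, mul_comm, pow_mul, hc3, one_pow]
  have hw3 : (v * c) ^ 3 = v := by
    rw [hvc.mul_pow, hc3, mul_one, pow_succ, hv2, one_mul]
  have hw4 : (v * c) ^ 4 = c := by
    rw [hvc.mul_pow, show 4 = 2 * 2 by norm_num, pow_mul v, hv2, one_pow, one_mul, show 2 * 2 = 3 + 1 by norm_num,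
      pow_succ, hc3, one_mul]
  apply Cfsg.Agent.Lib.SchurLocal.Cover.exists_surj_cyclic σ.ker hw hw6
  intro a ha
  have ha1 : σ a = 1 := ha
  have hprimes : ∀ ℓ : ℕ, ℓ.Prime → ℓ ∣ orderOf a → ℓ = 2 ∨ ℓ = 3 := by
    intro ℓ hℓ hd
    by_contra hc
    push Not at hc
    exact not_dvd_orderOf_ker hσ ha hℓ (hN ℓ hℓ hc.1 hc.2) hd
  obtain ⟨n, hn⟩ : ∃ n, n = orderOf a := ⟨_, rfl⟩
  have hn0 : n ≠ 0 := by
    rw [hn]
    exact (orderOf_pos a).ne'
  obtain ⟨p, hp⟩ : ∃ p, p = ordProj[2] n := ⟨_, rfl⟩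
  obtain ⟨q, hq⟩ : ∃ q, q = ordCompl[2] n := ⟨_, rfl⟩
  have hpq : p * q = n := by
    rw [hp, hq]
    exact Nat.ordProj_mul_ordCompl_eq_self n 2
  have hq2 : ¬ 2 ∣ q := by
    rw [hq]
    exact Nat.not_dvd_ordCompl Nat.prime_two hn0
  have hcop : Nat.Coprime p q := by
    rw [hp]
    exact Nat.Coprime.pow_left _ ((Nat.Prime.coprime_iff_not_dvd Nat.prime_two).2 hq2)
  have hp0 : p ≠ 0 := by
    rintro rfl
    rw [zero_mul] at hpq
    exact hn0 hpq.symm
  have hq0 : q ≠ 0 := by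
    rintro rfl
    rw [mul_zero] at hpq
    exact hn0 hpq.symm
  have ho1 : orderOf (a ^ q) = p := by
    rw [orderOf_pow_of_dvd hq0 (by rw [← hn, ← hpq]; exact dvd_mul_left _ _), ← hn, ← hpq]
    exact Nat.mul_div_cancel _ (Nat.pos_of_ne_zero hq0)
  have ho2 : orderOf (a ^ p) = q := by
    rw [orderOf_pow_of_dvd hp0 (by rw [← hn, ← hpq]; exact dvd_mul_right _ _), ← hn, ← hpq]
    exact Nat.mul_div_cancel_left _ (Nat.pos_of_ne_zero hp0)
  have h1 : a ^ q ∈ Subgroup.zpowers (v * c) := by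
    have hcopi : Nat.Coprime ρ.range.index (orderOf (a ^ q)) := by
      rw [ho1, hp]
      exact Nat.Coprime.pow_right _ ((Nat.Prime.coprime_iff_not_dvd Nat.prime_two).2 hodd).symm
    have h2 : σ (a ^ q) = 1 := by rw [map_pow, ha1, one_pow]
    rcases hvall _ h2 hcopi with h3' | h3'
    · rw [h3']
      exact Subgroup.one_mem _
    · have h9 := Subgroup.pow_mem _ (Subgroup.mem_zpowers (v * c)) 3
      rw [hw3] at h9
      rw [h3']
      exact h9
  have h2 : a ^ p ∈ Subgroup.zpowers (v * c) := by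
    have hcopi : Nat.Coprime R.index (orderOf (a ^ p)) := by
      rw [ho2]
      by_contra hnc
      obtain ⟨ℓ, hℓ, h5, h6⟩ := Nat.Prime.not_coprime_iff_dvd.1 hnc
      have h7 : ℓ ∣ orderOf a := by
        rw [← hn, ← hpq]
        exact dvd_mul_of_dvd_right h6 _
      rcases hprimes ℓ hℓ h7 with rfl | rfl
      · exact hq2 h6
      · exact h3 h5
    have h2 : σ (a ^ p) = 1 := by rw [map_pow, ha1, one_pow]
    have h8 := hcall _ h2 hcopi
    obtain ⟨j, hj⟩ := h8
    rw [← hj]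
    apply Subgroup.zpow_mem
    have h9 := Subgroup.pow_mem _ (Subgroup.mem_zpowers (v * c)) 4
    rw [hw4] at h9
    exact h9
  obtain ⟨s, t, hst⟩ : IsCoprime (p : ℤ) (q : ℤ) := Nat.isCoprime_iff_coprime.2 hcop
  have h5 : a = (a ^ p) ^ s * (a ^ q) ^ t := by
    rw [← zpow_natCast, ← zpow_natCast, ← zpow_mul, ← zpow_mul, ← zpow_add, mul_comm (p : ℤ), mul_comm (q : ℤ), hst, zpow_one]
  rw [h5]
  exact Subgroup.mul_mem _ (Subgroup.zpow_mem _ h2 _) (Subgroup.zpow_mem _ h1 _)

end upper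

section data

/-- The alternating group of degree six. -/
abbrev A6 := alternatingGroup (Fin 6)

/-- The rotation. -/
def pr : A6 := ⟨⟨![1, 2, 3, 0, 5, 4], ![3, 0, 1, 2, 5, 4], by decide, by decide⟩, by
  rw [Equiv.Perm.mem_alternatingGroup]; decide +kernel⟩

/-- The reflection. -/
def ps : A6 := ⟨⟨![2, 1, 0, 3, 5, 4], ![2, 1, 0, 3, 5, 4], by decide, by decide⟩, by
  rw [Equiv.Perm.mem_alternatingGroup]; decide +kernel⟩

/-- The embedding as a function. -/
def fD : DihedralGroup 4 → A6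
  | r i => pr ^ (i : ZMod 4).val
  | sr i => ps * pr ^ (i : ZMod 4).val

theorem fD_mul : ∀ a b : DihedralGroup 4, fD (a * b) = fD a * fD b := by decide +kernel

theorem fD_inj : ∀ a b : DihedralGroup 4, fD a = fD b → a = b := by decide +kernel

/-- The embedding. -/
def ρ6 : DihedralGroup 4 →* A6 := MonoidHom.mk' fD fD_mul

theorem ρ6_inj : Function.Injective ρ6 := fun a b h => fD_inj a b h

/-- A three-cycle. -/
def px : A6 := ⟨⟨![1, 2, 0, 3, 4, 5], ![2, 0, 1, 3, 4, 5], by decide, by decide⟩, by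
  rw [Equiv.Perm.mem_alternatingGroup]; decide +kernel⟩

/-- A disjoint three-cycle. -/
def py : A6 := ⟨⟨![0, 1, 2, 4, 5, 3], ![0, 1, 2, 5, 3, 4], by decide, by decide⟩, by
  rw [Equiv.Perm.mem_alternatingGroup]; decide +kernel⟩

theorem px_py : px * py = py * px := by decide +kernel

theorem px_cube : px ^ 3 = 1 := by decide +kernel

/-- The embedding as a function. -/
def f9 : ZMod 3 × ZMod 3 → A6 := fun a => px ^ a.1.val * py ^ a.2.val

theorem f9_add : ∀ a b : ZMod 3 × ZMod 3, f9 (a + b) = f9 a * f9 b := by decide +kernel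

theorem f9_inj : ∀ a b : ZMod 3 × ZMod 3, f9 a = f9 b → a = b := by decide +kernel

/-- The elementary abelian subgroup. -/
def φ9 : Multiplicative (ZMod 3 × ZMod 3) →* A6 :=
  MonoidHom.mk' (fun a => f9 (Multiplicative.toAdd a)) (fun a b => f9_add _ _)

theorem φ9_inj : Function.Injective φ9 := fun a b h => Multiplicative.toAdd.injective (f9_inj _ _ h)

theorem card_src : Nat.card (Multiplicative (ZMod 3 × ZMod 3)) = 9 := by
  rw [Nat.card_congr Multiplicative.toAdd, Nat.card_prod, Nat.card_zmod]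

theorem prime_sq {ℓ : ℕ} (hℓ : ℓ.Prime) (h2 : ℓ ≠ 2) (h3 : ℓ ≠ 3) : ¬ ℓ ^ 2 ∣ 2520 := by
  intro h
  have h1 : ℓ ^ 2 ≤ 2520 := Nat.le_of_dvd (by norm_num) h
  have h4 : ℓ ≤ 50 := by nlinarith
  interval_cases ℓ <;> first | exact h2 rfl | exact h3 rfl | (norm_num at h; done) | (norm_num at hℓ; done)

theorem card_A {n : ℕ} (hn : n = 6 ∨ n = 7) :
    Nat.card (alternatingGroup (Fin n)) = 360 ∨ Nat.card (alternatingGroup (Fin n)) = 2520 := by
  rcases hn with rfl | rfl
  · left
    rw [nat_card_alternatingGroup]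
    simp [Nat.factorial]
  · right
    rw [nat_card_alternatingGroup]
    simp [Nat.factorial]

/-- The upper bound for the multipliers. -/
theorem upper_A {n : ℕ} (hn : n = 6 ∨ n = 7) {Γ : Type*} [Group Γ] [Finite Γ] (σ : Γ →* alternatingGroup (Fin n))
    (hσ : IsStemExtension σ) : ∃ π : Multiplicative (ZMod 6) →* σ.ker, Function.Surjective π := by
  have hc := card_A hn
  have h6 : 6 ≤ n := by omega
  have hinj := embA_inj h6
  let ρ : DihedralGroup 4 →* alternatingGroup (Fin n) := (embA h6).comp ρ6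
  have hρ : Function.Injective ρ := hinj.comp ρ6_inj
  let φ : Multiplicative (ZMod 3 × ZMod 3) →* alternatingGroup (Fin n) := (embA h6).comp φ9
  have hφ : Function.Injective φ := hinj.comp φ9_inj
  have hi1 : Nat.card ρ.range * ρ.range.index = Nat.card (alternatingGroup (Fin n)) := ρ.range.card_mul_index
  have hi2 : Nat.card φ.range * φ.range.index = Nat.card (alternatingGroup (Fin n)) := φ.range.card_mul_index
  rw [← Nat.card_congr (MonoidHom.ofInjective hρ).toEquiv, DihedralGroup.nat_card] at hi1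
  rw [← Nat.card_congr (MonoidHom.ofInjective hφ).toEquiv, card_src] at hi2
  have hxm : embA h6 px ∈ φ.range := ⟨Multiplicative.ofAdd ((1 : ZMod 3), (0 : ZMod 3)), by
    show embA h6 (f9 ((1 : ZMod 3), (0 : ZMod 3))) = embA h6 px
    congr 1⟩
  have hym : embA h6 py ∈ φ.range := ⟨Multiplicative.ofAdd ((0 : ZMod 3), (1 : ZMod 3)), by
    show embA h6 (f9 ((0 : ZMod 3), (1 : ZMod 3))) = embA h6 py
    congr 1⟩
  refine upper σ hσ ?_ ρ hρ ?_ φ.range hxm hym ?_ ?_ ?_ ?_
  · intro ℓ hℓ h2 h3 hd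
    apply prime_sq hℓ h2 h3
    rcases hc with e | e
    · rw [e] at hd
      exact hd.trans (by norm_num)
    · rwa [e] at hd
  · rcases hc with e | e <;> omega
  · rw [← map_mul, ← map_mul, px_py]
  · rw [← map_pow, px_cube, map_one]
  · rintro _ ⟨a, rfl⟩
    refine ⟨(Multiplicative.toAdd a).1.val, (Multiplicative.toAdd a).2.val, ?_⟩
    rw [← map_pow, ← map_pow, ← map_mul]
    rfl
  · rcases hc with e | e <;> omega

/-- **The multipliers of the alternating groups of degree six and seven.** -/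
theorem hasCyclic {n : ℕ} (hn : n = 6 ∨ n = 7) : HasCyclicSchurMultiplier (alternatingGroup (Fin n)) 6 := by
  have h6 : 6 ≤ n := by omega
  have h7 : n ≤ 7 := by omega
  constructor
  · obtain ⟨C₁, i₁, f₁, σ₁, z₁, u₁, v₁, h₁, e₁⟩ := cover2 (by omega) (by omega : n ≤ 8)
    obtain ⟨C₂, i₂, f₂, σ₂, z₂, u₂, v₂, h₂, e₂⟩ := cover3 h6 h7
    have c₁ : z₁ ∈ commutator C₁ := by
      rw [← e₁, commutator_def]
      exact Subgroup.commutator_mem_commutator (Subgroup.mem_top _) (Subgroup.mem_top _)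
    have c₂ : z₂ ∈ commutator C₂ := by
      rw [← e₂, commutator_def]
      exact Subgroup.commutator_mem_commutator (Subgroup.mem_top _) (Subgroup.mem_top _)
    obtain ⟨ξ, hξ, hξc⟩ := h₁.fib_both h₂ (by norm_num : Nat.Coprime 2 3) c₁ c₂
    exact ⟨Fib σ₁ σ₂, inferInstance, inferInstance, _, hξ.stem hξc, hξ.kerEquiv⟩
  · intro Γ _ _ σ hσ
    exact upper_A hn σ hσ

end data

end Cfsg.Agent.Lib.SchurLocal.A67
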