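import Mathlib

/-! Data for the triple cover of the alternating group of degree seven (generated). -/

namespace Cfsg.Agent.Lib.SchurLocal.A7Data

/-- Generated data. -/
def pX : ℕ := 0xa1d84e3e05eda9924736ec514b29662958987efad0b302e49c851c6964e979b323cc60441420c0

/-- Generated data. -/
def pXi : ℕ := 0x1e29566a6b1766b3334e085421dc6e6cbc9028fa9cb4e791363918bf09c955fa52a060c4042140

/-- Generated data. -/
def pY : ℕ := 0x5f336e88a20c4d01da26092c50e6d1b4baf2aa19a9c678d65583de49c75996fc1fa05006043102

/-- Generated data. -/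
def pYi : ℕ := 0xc9c5c92b07e475b6075992e556f6a621034e868312cd44e3acf82a462c6c7ae9eda441810800c5

/-- Generated data. -/
def pU1 : ℕ := 0xb528ec5df4586605275a6713ccfc9d95e350309c4bba420a6eaaefc22868395a5a1c3045100086

/-- Generated data. -/
def pU1i : ℕ := 0x8e164f417cf045224ca267d6c4e36ab9e8254c8aecbe72a9932b5c88b75b6146951c0103181142

/-- Generated data. -/
def pU2 : ℕ := 0x7eba1c808a954a290e2a64146b0c6761e8ecce9856453b4b26e64fbd7c8d7656cc1c0085046103

/-- Generated data. -/
def pU2i : ℕ := 0x6cd8623d255ccad6b18262a976a66fcde2f026345f398b245ab5e54283085274ee1c21010050c6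

/-- Generated data. -/
def pV1 : ℕ := 0x71ab116c9b7156334f9e64e0a992e47de773bf2897610ad2954c16a0ea4a84cb881c5184002043

/-- Generated data. -/
def pV1i : ℕ := 0x71ab116c9b7156334f9e64e0a992e47de773bf2897610ad2954c16a0ea4a84cb881c5184002043

/-- Generated data. -/
def pV2 : ℕ := 0x2d630daa8b4a92f46e9e666b6d37157de7618d09544b2818897a5a24ec31cec3c81c00c4142046

/-- Generated data. -/
def pV2i : ℕ := 0x2d630daa8b4a92f46e9e666b6d37157de7618d09544b2818897a5a24ec31cec3c81c00c4142046

/-- Generated data. -/
def pZ : ℕ := 0x553532c7321224c40b38744f28d928b669ebb25a6a8e2bafc1b69985d59881771f7861440c2040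

/-- Generated data. -/
def pCU : ℕ := 0x2d57b31e89f13484136127218e53f276c322bc9a6d5da826b94ad992a45fc0a58e6c6080101143

/-- Generated data. -/
def pCV : ℕ := 0xae549ab1cc073a8856b9420aa4c8cd4f15679ad3e066a25b45e7e45f360b890772bc6140102043

/-- Generated data. -/
def D0 : ℕ := 0xfffffffffff80

/-- Generated data. -/
def A0 : ℕ := 0x10752235774931a72642c31761955b50c14761365942156560846f35a76651b75054d64e46126854c65227360e65376350d54f62466a42f56247146c71561f62956d000000000000000000000000

/-- Generated data. -/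
def D1 : ℕ := 0xfffbfbfffff00

/-- Generated data. -/
def A1 : ℕ := 0x45b34d46156264f51753363047251225a20c32800054a36953140e30d62a57300054b62534910852b65f44e42750a32942443255766552236824c14845441421a000000000000000000000000000

/-- Generated data. -/
def D2 : ℕ := 0x410000008200

/-- Generated data. -/
def A2 : ℕ := 0x10900000000000000026e000000000000000000000000000000000000000000000000000000000000000000000000149000000000000000000000000000000000000000000000

/-- Generated data. -/
def wU1 : List ℕ := [1, 0, 3, 0, 1, 1, 1, 1, 1]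

/-- Generated data. -/
def wU2 : List ℕ := [1, 1, 1, 0, 3, 3, 0, 3, 3, 3, 0]

/-- Generated data. -/
def wV1 : List ℕ := [1, 0, 1, 1, 0, 1]

/-- Generated data. -/
def wV2 : List ℕ := [0, 0, 1, 0, 0, 1]

/-- Generated data. -/
def wZ : List ℕ := [1, 1, 1, 1, 1, 1, 1]

/-- Generated data. -/
def wCU : List ℕ := [3, 3, 0, 1, 2, 1, 2, 1, 0]

/-- Generated data. -/
def wCV : List ℕ := [0, 1, 1, 0, 1]

end Cfsg.Agent.Lib.SchurLocal.A7Data
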