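import Mathlib
import Cfsg.Agent.Lib.SchurLocal.Tools

/-!
# Explicit covers: restriction of permutations, pull-backs and fibre products
-/

set_option autoImplicit false

namespace Cfsg.Agent.Lib.SchurLocal.Cover

open Cfsg Equiv
open scoped commutatorElement

section restrict

variable {m n : ℕ} (h : m ≤ n)

/-- The permutations preserving the first `m` points. -/
def resSub : Subgroup (Perm (Fin n)) where
  carrier := {σ | ∀ i : Fin n, i.val < m ↔ (σ i).val < m}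
  one_mem' := fun _ => Iff.rfl
  mul_mem' := fun {a b} ha hb i => by
    rw [hb i, ha (b i)]
    rfl
  inv_mem' := fun {a} ha i => by
    have := ha (a⁻¹ i)
    have e : a (a⁻¹ i) = i := by simp
    rw [e] at this
    exact this.symm

/-- The restriction to the first `m` points. -/
def res : resSub (m := m) (n := n) →* Perm (Fin m) where
  toFun σ :=
    { toFun := fun i => ⟨(σ.1 (Fin.castLE h i)).val, (σ.2 (Fin.castLE h i)).1 i.2⟩
      invFun := fun i => ⟨(σ.1⁻¹ (Fin.castLE h i)).val, ((σ⁻¹).2 (Fin.castLE h i)).1 i.2⟩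
      left_inv := fun i => by
        apply Fin.ext
        have e : Fin.castLE h ⟨(σ.1 (Fin.castLE h i)).val, (σ.2 (Fin.castLE h i)).1 i.2⟩ = σ.1 (Fin.castLE h i) :=
          Fin.ext rfl
        simp [e]
      right_inv := fun i => by
        apply Fin.ext
        have e : Fin.castLE h ⟨(σ.1⁻¹ (Fin.castLE h i)).val, ((σ⁻¹).2 (Fin.castLE h i)).1 i.2⟩ = σ.1⁻¹ (Fin.castLE h i) :=
          Fin.ext rfl
        simp [e] }
  map_one' := by
    ext i
    rfl
  map_mul' a b := by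
    ext i
    have e : Fin.castLE h ⟨(b.1 (Fin.castLE h i)).val, (b.2 (Fin.castLE h i)).1 i.2⟩ = b.1 (Fin.castLE h i) :=
      Fin.ext rfl
    simp [e]

theorem res_apply (σ : resSub (m := m) (n := n)) (i : Fin m) : ((res h σ i : Fin m) : ℕ) = (σ.1 (Fin.castLE h i)).val := rfl

/-- The equivalence with the subtype. -/
def finSub : Fin m ≃ {i : Fin n // i.val < m} where
  toFun i := ⟨Fin.castLE h i, i.2⟩
  invFun i := ⟨i.1.val, i.2⟩
  left_inv _ := rfl
  right_inv _ := rfl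

/-- Extension of a permutation by the identity. -/
def embP : Perm (Fin m) →* Perm (Fin n) := Perm.extendDomainHom (finSub h)

theorem embP_inj : Function.Injective (embP h) := Perm.extendDomainHom_injective _

theorem sign_embP (g : Perm (Fin m)) : Perm.sign (embP h g) = Perm.sign g := Perm.sign_extendDomain g (finSub h)

theorem embP_castLE (g : Perm (Fin m)) (i : Fin m) : embP h g (Fin.castLE h i) = Fin.castLE h (g i) := by
  have := Perm.extendDomain_apply_image g (finSub h) i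
  exact this

theorem embP_of_ge (g : Perm (Fin m)) (i : Fin n) (hi : m ≤ i.val) : embP h g i = i :=
  Perm.extendDomain_apply_not_subtype g (finSub h) (by simpa using hi)

/-- Permutations fixing the last points are extensions. -/
theorem exists_embP {g : Perm (Fin n)} (hg : ∀ i : Fin n, m ≤ i.val → g i = i) : ∃ g' : Perm (Fin m), embP h g' = g := by
  have hmem : g ∈ resSub (m := m) (n := n) := by
    intro i
    constructor
    · intro hi
      by_contra hc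
      have h1 := hg (g i) (by omega)
      have h2 := g.injective h1
      rw [h2] at hc
      exact hc hi
    · intro hi
      by_contra hc
      have h1 := hg i (by omega)
      rw [h1] at hi
      exact hc hi
  refine ⟨res h ⟨g, hmem⟩, ?_⟩
  ext i
  by_cases hi : i.val < m
  · have e : i = Fin.castLE h ⟨i.val, hi⟩ := Fin.ext rfl
    rw [e, embP_castLE]
    rfl
  · rw [embP_of_ge h _ i (by omega), hg i (by omega)]

/-- The embedding of alternating groups. -/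
def embA : alternatingGroup (Fin m) →* alternatingGroup (Fin n) :=
  ((embP h).comp (alternatingGroup (Fin m)).subtype).codRestrict _ (fun g => by
    show Perm.sign (embP h g.1) = 1
    rw [sign_embP]
    exact g.2)

theorem embA_inj : Function.Injective (embA h) := fun a b e => by
  apply Subtype.ext
  apply embP_inj h
  exact congrArg Subtype.val e

theorem embA_val (g : alternatingGroup (Fin m)) : (embA h g : Perm (Fin n)) = embP h g.1 := rfl

/-- Even permutations fixing the last points are in the range. -/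
theorem mem_range_embA {g : alternatingGroup (Fin n)} (hg : ∀ i : Fin n, m ≤ i.val → g.1 i = i) :
    g ∈ (embA h).range := by
  obtain ⟨g', e⟩ := exists_embP h hg
  have h1 : g' ∈ alternatingGroup (Fin m) := by
    show Perm.sign g' = 1
    rw [← sign_embP h, e]
    exact g.2
  exact ⟨⟨g', h1⟩, Subtype.ext e⟩

end restrict

/-- A cyclic central cover. -/
structure IsCov {C G : Type*} [Group C] [Group G] (π : C →* G) (z : C) (k : ℕ) : Prop where
  surj : Function.Surjective π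
  ord : orderOf z = k
  ker : ∀ c, π c = 1 ↔ c ∈ Subgroup.zpowers z
  cen : ∀ c, c * z = z * c

section pull

variable {C G B : Type*} [Group C] [Group G] [Group B]

/-- The pull-back of a cover along an injective homomorphism. -/
theorem IsCov.pull {π : C →* B} {z : C} {k : ℕ} (hc : IsCov π z k) (ι : G →* B) (hι : Function.Injective ι)
    {u v : C} (hu : π u ∈ ι.range) (hv : π v ∈ ι.range) (huv : ⁅u, v⁆ = z) :
    ∃ (σ : ι.range.comap π →* G) (z' u' v' : ι.range.comap π), IsCov σ z' k ∧ ⁅u', v'⁆ = z' := by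
  have hz1 : π z = 1 := (hc.ker z).2 (Subgroup.mem_zpowers z)
  let e : G ≃* ι.range := MonoidHom.ofInjective hι
  let σ : ι.range.comap π →* G := e.symm.toMonoidHom.comp (π.subgroupComap ι.range)
  have hσ1 : ∀ x, σ x = 1 ↔ π x.1 = 1 := by
    intro x
    constructor
    · intro h
      have h3 : (π.subgroupComap ι.range) x = 1 := e.symm.injective (by rw [map_one]; exact h)
      exact congrArg Subtype.val h3
    · intro h
      have h3 : (π.subgroupComap ι.range) x = 1 := Subtype.ext h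
      show e.symm _ = 1
      rw [h3, map_one]
  have hzm : z ∈ ι.range.comap π := by
    show π z ∈ ι.range
    rw [hz1]
    exact Subgroup.one_mem _
  refine ⟨σ, ⟨z, hzm⟩, ⟨u, hu⟩, ⟨v, hv⟩, ⟨?_, ?_, ?_, ?_⟩, Subtype.ext huv⟩
  · exact e.symm.surjective.comp (π.subgroupComap_surjective_of_surjective _ hc.surj)
  · rw [Subgroup.orderOf_mk]
    exact hc.ord
  · intro c
    rw [hσ1, hc.ker]
    constructor
    · rintro ⟨j, hj⟩
      exact ⟨j, Subtype.ext hj⟩
    · rintro ⟨j, hj⟩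
      exact ⟨j, congrArg Subtype.val hj⟩
  · intro c
    exact Subtype.ext (hc.cen c.1)

end pull

section fibre

variable {Γ₁ Γ₂ G : Type*} [Group Γ₁] [Group Γ₂] [Group G]

/-- The fibre product. -/
def Fib (σ₁ : Γ₁ →* G) (σ₂ : Γ₂ →* G) : Subgroup (Γ₁ × Γ₂) :=
  MonoidHom.eqLocus (σ₁.comp (MonoidHom.fst _ _)) (σ₂.comp (MonoidHom.snd _ _))

variable {σ₁ : Γ₁ →* G} {σ₂ : Γ₂ →* G}

theorem mem_Fib {x : Γ₁ × Γ₂} : x ∈ Fib σ₁ σ₂ ↔ σ₁ x.1 = σ₂ x.2 := Iff.rfl

/-- The first projection. -/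
def p₁ (σ₁ : Γ₁ →* G) (σ₂ : Γ₂ →* G) : Fib σ₁ σ₂ →* Γ₁ := (MonoidHom.fst _ _).comp (Fib σ₁ σ₂).subtype

/-- The second projection. -/
def p₂ (σ₁ : Γ₁ →* G) (σ₂ : Γ₂ →* G) : Fib σ₁ σ₂ →* Γ₂ := (MonoidHom.snd _ _).comp (Fib σ₁ σ₂).subtype

theorem p₁_surj (h : Function.Surjective σ₂) : Function.Surjective (p₁ σ₁ σ₂) := by
  intro g
  obtain ⟨c, hc⟩ := h (σ₁ g)
  exact ⟨⟨(g, c), hc.symm⟩, rfl⟩

theorem p₂_surj (h : Function.Surjective σ₁) : Function.Surjective (p₂ σ₁ σ₂) := by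
  intro c
  obtain ⟨g, hg⟩ := h (σ₂ c)
  exact ⟨⟨(g, c), hg⟩, rfl⟩

/-- Elements of the second factor in the commutator subgroup of the fibre product. -/
theorem mem_commutator_Fib (h₁ : Function.Surjective σ₁) {z : Γ₂} (hz : z ∈ commutator Γ₂) (hz1 : σ₂ z = 1) {e : ℕ}
    (he : ∀ w, σ₁ w = 1 → w ^ e = 1) (hco : Nat.Coprime e (orderOf z)) (hmem : ((1 : Γ₁), z) ∈ Fib σ₁ σ₂) :
    (⟨((1 : Γ₁), z), hmem⟩ : Fib σ₁ σ₂) ∈ commutator (Fib σ₁ σ₂) := by
  have h1 : (commutator (Fib σ₁ σ₂)).map (p₂ σ₁ σ₂) = commutator Γ₂ := by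
    rw [commutator_def, commutator_def, Subgroup.map_commutator, Subgroup.map_top_of_surjective _ (p₂_surj h₁)]
  rw [← h1] at hz
  obtain ⟨x, hx, hxz⟩ := hz
  obtain ⟨⟨w, c⟩, hwc⟩ := x
  have hc : c = z := hxz
  subst hc
  have hw1 : σ₁ w = 1 := by
    have : σ₁ w = σ₂ c := hwc
    rw [this, hz1]
  obtain ⟨k, hk⟩ := exists_pow_eq_self_of_coprime hco
  have e1 : ((⟨(w, c), hwc⟩ : Fib σ₁ σ₂) ^ e) ^ k = ⟨((1 : Γ₁), c), hmem⟩ := by
    apply Subtype.ext
    apply Prod.ext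
    · show ((w ^ e) ^ k) = 1
      rw [he w hw1, one_pow]
    · show ((c ^ e) ^ k) = c
      exact hk
  rw [← e1]
  exact Subgroup.pow_mem _ (Subgroup.pow_mem _ hx _) _

end fibre

section cov

variable {C G : Type*} [Group C] [Group G]

theorem IsCov.ker_eq {π : C →* G} {z : C} {k : ℕ} (hc : IsCov π z k) : π.ker = Subgroup.zpowers z := by
  ext c
  exact hc.ker c

/-- A cover with the central element in the commutator subgroup is a stem extension. -/
theorem IsCov.stem {π : C →* G} {z : C} {k : ℕ} (hc : IsCov π z k) (hz : z ∈ commutator C) : IsStemExtension π := by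
  refine ⟨hc.surj, ?_, ?_⟩
  · rw [hc.ker_eq, Subgroup.zpowers_le, Subgroup.mem_center_iff]
    exact hc.cen
  · rw [hc.ker_eq, Subgroup.zpowers_le]
    exact hz

theorem IsCov.kerEquiv {π : C →* G} {z : C} {k : ℕ} (hc : IsCov π z k) : Nonempty (π.ker ≃* Multiplicative (ZMod k)) := by
  have e := hc.ker_eq
  have h1 : IsCyclic π.ker := by
    rw [e]
    infer_instance
  have h2 : Nat.card π.ker = k := by
    rw [e, Nat.card_zpowers, hc.ord]
  have h3 := zmodCyclicMulEquiv h1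
  rw [h2] at h3
  exact ⟨h3.symm⟩

/-- A surjection from a cyclic group onto a subgroup generated by an element. -/
theorem exists_surj_cyclic (H : Subgroup C) {w : C} (hw : w ∈ H) {k : ℕ} (hk : w ^ k = 1)
    (hall : ∀ x ∈ H, x ∈ Subgroup.zpowers w) : ∃ π : Multiplicative (ZMod k) →* H, Function.Surjective π := by
  let w' : H := ⟨w, hw⟩
  have hk' : w' ^ k = 1 := Subtype.ext hk
  let f : ℤ →+ Additive H := zmultiplesHom _ (Additive.ofMul w')
  have hf : f (k : ℤ) = 0 := by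
    show (k : ℤ) • Additive.ofMul w' = 0
    rw [natCast_zsmul, ← ofMul_pow, hk']
    rfl
  let g : ZMod k →+ Additive H := ZMod.lift k ⟨f, hf⟩
  let π : Multiplicative (ZMod k) →* H :=
    { toFun := fun a => Additive.toMul (g (Multiplicative.toAdd a))
      map_one' := by
        show Additive.toMul (g 0) = 1
        rw [map_zero]
        rfl
      map_mul' := fun a b => by
        show Additive.toMul (g (Multiplicative.toAdd a + Multiplicative.toAdd b)) = _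
        rw [map_add]
        rfl }
  refine ⟨π, ?_⟩
  rintro ⟨x, hx⟩
  obtain ⟨j, hj⟩ := hall x hx
  refine ⟨Multiplicative.ofAdd (j : ZMod k), ?_⟩
  show Additive.toMul (g (j : ZMod k)) = _
  have h1 : g (j : ZMod k) = f j := ZMod.lift_coe _ _ _
  rw [h1]
  apply Subtype.ext
  show ((Additive.toMul (j • Additive.ofMul w') : H) : C) = x
  rw [← ofMul_zpow]
  show ((w' ^ j : H) : C) = x
  rw [Subgroup.coe_zpow]
  exact hj

end cov

section fibcov

variable {Γ₁ Γ₂ G : Type*} [Group Γ₁] [Group Γ₂] [Group G] {σ₁ : Γ₁ →* G} {σ₂ : Γ₂ →* G}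

/-- The mirror image of `mem_commutator_Fib`. -/
theorem mem_commutator_Fib' (h₂ : Function.Surjective σ₂) {z : Γ₁} (hz : z ∈ commutator Γ₁) (hz1 : σ₁ z = 1) {e : ℕ}
    (he : ∀ w, σ₂ w = 1 → w ^ e = 1) (hco : Nat.Coprime e (orderOf z)) (hmem : (z, (1 : Γ₂)) ∈ Fib σ₁ σ₂) :
    (⟨(z, (1 : Γ₂)), hmem⟩ : Fib σ₁ σ₂) ∈ commutator (Fib σ₁ σ₂) := by
  have h1 : (commutator (Fib σ₁ σ₂)).map (p₁ σ₁ σ₂) = commutator Γ₁ := by
    rw [commutator_def, commutator_def, Subgroup.map_commutator, Subgroup.map_top_of_surjective _ (p₁_surj h₂)]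
  rw [← h1] at hz
  obtain ⟨x, hx, hxz⟩ := hz
  obtain ⟨⟨c, w⟩, hwc⟩ := x
  have hc : c = z := hxz
  subst hc
  have hw1 : σ₂ w = 1 := by
    have : σ₁ c = σ₂ w := hwc
    rw [← this, hz1]
  obtain ⟨k, hk⟩ := exists_pow_eq_self_of_coprime hco
  have e1 : ((⟨(c, w), hwc⟩ : Fib σ₁ σ₂) ^ e) ^ k = ⟨(c, (1 : Γ₂)), hmem⟩ := by
    apply Subtype.ext
    apply Prod.ext
    · show ((c ^ e) ^ k) = c
      exact hk
    · show ((w ^ e) ^ k) = 1
      rw [he w hw1, one_pow]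
  rw [← e1]
  exact Subgroup.pow_mem _ (Subgroup.pow_mem _ hx _) _

/-- The fibre product over a cover of the first factor is a cover of the first factor. -/
theorem IsCov.fib_left {z : Γ₂} {k : ℕ} (hc : IsCov σ₂ z k) (h₁ : Function.Surjective σ₁) {e : ℕ}
    (he : ∀ w, σ₁ w = 1 → w ^ e = 1) (hco : Nat.Coprime e k) (hz : z ∈ commutator Γ₂) :
    ∃ z' : Fib σ₁ σ₂, IsCov (p₁ σ₁ σ₂) z' k ∧ z' ∈ commutator (Fib σ₁ σ₂) := by
  have hz1 : σ₂ z = 1 := (hc.ker z).2 (Subgroup.mem_zpowers z)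
  have hmem : ((1 : Γ₁), z) ∈ Fib σ₁ σ₂ := by
    rw [mem_Fib]
    show σ₁ 1 = σ₂ z
    rw [map_one, hz1]
  refine ⟨⟨(1, z), hmem⟩, ⟨p₁_surj hc.surj, ?_, ?_, ?_⟩, ?_⟩
  · rw [Subgroup.orderOf_mk, Prod.orderOf_mk, orderOf_one, Nat.lcm_one_left, hc.ord]
  · intro x
    constructor
    · intro hx
      have h1 : x.1.1 = 1 := hx
      have h2 : σ₁ x.1.1 = σ₂ x.1.2 := x.2
      rw [h1, map_one] at h2
      obtain ⟨j, hj⟩ := (hc.ker x.1.2).1 h2.symm
      refine ⟨j, Subtype.ext (Prod.ext ?_ ?_)⟩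
      · show ((⟨(1, z), hmem⟩ : Fib σ₁ σ₂) ^ j : Fib σ₁ σ₂).1.1 = x.1.1
        rw [h1, Subgroup.coe_zpow, Prod.pow_fst, one_zpow]
      · show ((⟨(1, z), hmem⟩ : Fib σ₁ σ₂) ^ j : Fib σ₁ σ₂).1.2 = x.1.2
        rw [Subgroup.coe_zpow, Prod.pow_snd]
        exact hj
    · rintro ⟨j, rfl⟩
      show (((⟨(1, z), hmem⟩ : Fib σ₁ σ₂) ^ j : Fib σ₁ σ₂)).1.1 = 1
      rw [Subgroup.coe_zpow, Prod.pow_fst, one_zpow]
  · intro c
    refine Subtype.ext (Prod.ext ?_ ?_)
    · show c.1.1 * 1 = 1 * c.1.1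
      rw [mul_one, one_mul]
    · exact hc.cen c.1.2
  · exact mem_commutator_Fib h₁ hz hz1 he (by rw [hc.ord]; exact hco) hmem

/-- The fibre product of two covers of coprime degrees. -/
theorem IsCov.fib_both {z₁ : Γ₁} {z₂ : Γ₂} {k₁ k₂ : ℕ} (h₁ : IsCov σ₁ z₁ k₁) (h₂ : IsCov σ₂ z₂ k₂)
    (hco : Nat.Coprime k₁ k₂) (hz₁ : z₁ ∈ commutator Γ₁) (hz₂ : z₂ ∈ commutator Γ₂) :
    ∃ ξ : Fib σ₁ σ₂, IsCov (σ₁.comp (p₁ σ₁ σ₂)) ξ (k₁ * k₂) ∧ ξ ∈ commutator (Fib σ₁ σ₂) := by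
  have hz1 : σ₁ z₁ = 1 := (h₁.ker z₁).2 (Subgroup.mem_zpowers z₁)
  have hz2 : σ₂ z₂ = 1 := (h₂.ker z₂).2 (Subgroup.mem_zpowers z₂)
  have hmem : (z₁, z₂) ∈ Fib σ₁ σ₂ := by
    rw [mem_Fib]
    show σ₁ z₁ = σ₂ z₂
    rw [hz1, hz2]
  have hm1 : (z₁, (1 : Γ₂)) ∈ Fib σ₁ σ₂ := by
    rw [mem_Fib]
    show σ₁ z₁ = σ₂ 1
    rw [hz1, map_one]
  have hm2 : ((1 : Γ₁), z₂) ∈ Fib σ₁ σ₂ := by
    rw [mem_Fib]
    show σ₁ 1 = σ₂ z₂
    rw [hz2, map_one]
  have pow1 : ∀ w, σ₁ w = 1 → w ^ k₁ = 1 := by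
    intro w hw
    obtain ⟨j, rfl⟩ := (h₁.ker w).1 hw
    rw [← zpow_natCast, ← zpow_mul, mul_comm, zpow_mul, zpow_natCast, ← h₁.ord, pow_orderOf_eq_one, one_zpow]
  have pow2 : ∀ w, σ₂ w = 1 → w ^ k₂ = 1 := by
    intro w hw
    obtain ⟨j, rfl⟩ := (h₂.ker w).1 hw
    rw [← zpow_natCast, ← zpow_mul, mul_comm, zpow_mul, zpow_natCast, ← h₂.ord, pow_orderOf_eq_one, one_zpow]
  refine ⟨⟨(z₁, z₂), hmem⟩, ⟨?_, ?_, ?_, ?_⟩, ?_⟩
  · exact h₁.surj.comp (p₁_surj h₂.surj)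
  · rw [Subgroup.orderOf_mk, Prod.orderOf_mk, h₁.ord, h₂.ord, hco.lcm_eq_mul]
  · intro x
    constructor
    · intro hx
      have h1 : σ₁ x.1.1 = 1 := hx
      have h3 : σ₁ x.1.1 = σ₂ x.1.2 := x.2
      have h2 : σ₂ x.1.2 = 1 := by rw [← h3, h1]
      obtain ⟨i, hi⟩ := (h₁.ker _).1 h1
      obtain ⟨j, hj⟩ := (h₂.ker _).1 h2
      obtain ⟨a, b, hab⟩ : IsCoprime (k₁ : ℤ) (k₂ : ℤ) := Nat.isCoprime_iff_coprime.2 hco
      refine ⟨i * (b * k₂) + j * (a * k₁), Subtype.ext (Prod.ext ?_ ?_)⟩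
      · show ((⟨(z₁, z₂), hmem⟩ : Fib σ₁ σ₂) ^ _ : Fib σ₁ σ₂).1.1 = x.1.1
        rw [Subgroup.coe_zpow, Prod.pow_fst]
        show z₁ ^ _ = x.1.1
        have e1 : z₁ ^ (k₁ : ℤ) = 1 := by
          rw [zpow_natCast, ← h₁.ord, pow_orderOf_eq_one]
        have e2 : i * (b * (k₂ : ℤ)) + j * (a * k₁) = i + k₁ * (j * a - i * a) := by
          have : b * (k₂ : ℤ) = 1 - a * k₁ := by linarith
          rw [this]
          ring
        rw [e2, zpow_add, zpow_mul, e1, one_zpow, mul_one]; exact hi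
      · show ((⟨(z₁, z₂), hmem⟩ : Fib σ₁ σ₂) ^ _ : Fib σ₁ σ₂).1.2 = x.1.2
        rw [Subgroup.coe_zpow, Prod.pow_snd]
        show z₂ ^ _ = x.1.2
        have e1 : z₂ ^ (k₂ : ℤ) = 1 := by
          rw [zpow_natCast, ← h₂.ord, pow_orderOf_eq_one]
        have e2 : i * (b * (k₂ : ℤ)) + j * (a * k₁) = j + k₂ * (i * b - j * b) := by
          have : a * (k₁ : ℤ) = 1 - b * k₂ := by linarith
          rw [this]
          ring
        rw [e2, zpow_add, zpow_mul, e1, one_zpow, mul_one]; exact hj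
    · rintro ⟨j, rfl⟩
      show σ₁ (((⟨(z₁, z₂), hmem⟩ : Fib σ₁ σ₂) ^ j : Fib σ₁ σ₂)).1.1 = 1
      rw [Subgroup.coe_zpow, Prod.pow_fst]
      show σ₁ (z₁ ^ j) = 1
      rw [map_zpow, hz1, one_zpow]
  · intro c
    refine Subtype.ext (Prod.ext ?_ ?_)
    · exact h₁.cen c.1.1
    · exact h₂.cen c.1.2
  · have e : (⟨(z₁, z₂), hmem⟩ : Fib σ₁ σ₂) = ⟨(z₁, 1), hm1⟩ * ⟨(1, z₂), hm2⟩ :=
      Subtype.ext (Prod.ext (mul_one z₁).symm (one_mul z₂).symm)
    rw [e]
    refine Subgroup.mul_mem _ ?_ ?_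
    · exact mem_commutator_Fib' h₂.surj hz₁ hz1 pow2 (by rw [h₁.ord]; exact hco.symm) hm1
    · exact mem_commutator_Fib h₁.surj hz₂ hz2 pow1 (by rw [h₂.ord]; exact hco) hm2

end fibcov

end Cfsg.Agent.Lib.SchurLocal.Cover
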