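import Mathlib
import Cfsg.Agent.Lib.SchurLocal.Tools
import Cfsg.Agent.Lib.Cl.DihMult
import Cfsg.Agent.Lib.SmallSimple.PSLSeven
import Cfsg.Agent.Lib.Classical.Transvection
import Cfsg.Agent.Lib.Classical.RingCongr
import Cfsg.Agent.Lib.Classical.ExcSL2
import Cfsg.Agent.Lib.Classical.Basic

/-!
# The multiplier of `L₃(2)`
-/

set_option autoImplicit false

namespace Cfsg.Agent.Lib.SchurLocal.L32

open Cfsg Cfsg.Agent.Lib.KnownSimple.Schur DihedralGroup
open scoped commutatorElement

/-- The special linear group over the field with two elements. -/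
abbrev L : Type := Matrix.SpecialLinearGroup (Fin 3) (ZMod 2)

theorem card_L : Nat.card L = 168 := by
  have h := Cfsg.Agent.Lib.Classical.card_SL (F := ZMod 2) (q := 2) (by simp [ZMod.card]) 3 (by norm_num)
  have h3 : (∏ i : Fin 3, (2 ^ 3 - 2 ^ (i : ℕ))) = 168 := by decide
  rw [h3] at h
  generalize Nat.card (Matrix.SpecialLinearGroup (Fin 3) (ZMod 2)) = x at h ⊢
  omega

/-- The rotation. -/
def rr : L := ⟨!![1, 1, 1; 0, 1, 1; 0, 0, 1], by decide⟩

/-- The reflection. -/
def ss : L := ⟨!![1, 0, 0; 0, 1, 1; 0, 0, 1], by decide⟩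

/-- The embedding as a function. -/
def fD : DihedralGroup 4 → L
  | r i => rr ^ (i : ZMod 4).val
  | sr i => ss * rr ^ (i : ZMod 4).val

theorem fD_mul : ∀ a b : DihedralGroup 4, fD (a * b) = fD a * fD b := by decide +kernel

theorem fD_inj : ∀ a b : DihedralGroup 4, fD a = fD b → a = b := by decide +kernel

/-- The embedding. -/
def ρ : DihedralGroup 4 →* L := MonoidHom.mk' fD fD_mul

theorem ρ_inj : Function.Injective ρ := fun a b h => fD_inj a b h

/-- The Sylow 2-subgroup. -/
def R : Subgroup L := ρ.range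

/-- The isomorphism. -/
noncomputable def eR : DihedralGroup 4 ≃* R := MonoidHom.ofInjective ρ_inj

theorem card_R : Nat.card R = 8 := by
  rw [← Nat.card_congr eR.toEquiv, DihedralGroup.nat_card]

theorem index_R : R.index = 21 := by
  have h := R.index_mul_card
  rw [card_R, card_L] at h
  omega

/-- The structure of a stem extension. -/
theorem stem_structure {Γ : Type*} [Group Γ] [Finite Γ] (σ : Γ →* L) (hσ : IsStemExtension σ) :
    ∃ v : Γ, v ^ 2 = 1 ∧ σ v = 1 ∧ ∀ z, σ z = 1 → z = 1 ∨ z = v := by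
  classical
  obtain ⟨hs, hcen, hcomm⟩ := id hσ
  -- the order of the kernel elements
  have hcop : ∀ z, σ z = 1 → Nat.Coprime 21 (orderOf z) := by
    intro z hz
    have h3 := not_dvd_orderOf_ker hσ (a := z) hz Nat.prime_three (by rw [card_L]; norm_num)
    have h7 := not_dvd_orderOf_ker hσ (a := z) hz (ℓ := 7) (by norm_num) (by rw [card_L]; norm_num)
    have e : (21 : ℕ) = 3 * 7 := by norm_num
    rw [e]
    exact Nat.Coprime.mul_left ((Nat.Prime.coprime_iff_not_dvd Nat.prime_three).2 h3)
      ((Nat.Prime.coprime_iff_not_dvd (by norm_num)).2 h7)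
  -- the preimage of the Sylow subgroup
  let Q : Subgroup Γ := R.comap σ
  have hQi : Q.index = 21 := by
    rw [Subgroup.index_comap_of_surjective _ hs, index_R]
  let τ : Q →* DihedralGroup 4 := eR.symm.toMonoidHom.comp (σ.subgroupComap R)
  have hτs : Function.Surjective τ :=
    eR.symm.surjective.comp (σ.subgroupComap_surjective_of_surjective R hs)
  have hτk : ∀ x : Q, τ x = 1 ↔ σ (x : Γ) = 1 := by
    intro x
    constructor
    · intro h
      have h3 : (σ.subgroupComap R) x = 1 := eR.symm.injective (by rw [map_one]; exact h)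
      exact congrArg Subtype.val h3
    · intro h
      have h3 : (σ.subgroupComap R) x = 1 := Subtype.ext h
      show eR.symm _ = 1
      rw [h3, map_one]
  have hmem : ∀ z, σ z = 1 → z ∈ Q := by
    intro z hz
    show σ z ∈ R
    rw [hz]
    exact R.one_mem
  have hτ : IsStemExtension τ := by
    refine ⟨hτs, ?_, ?_⟩
    · intro x hx
      have h6 := hcen ((hτk x).1 hx)
      rw [Subgroup.mem_center_iff]
      intro y
      apply Subtype.ext
      exact Subgroup.mem_center_iff.1 h6 y
    · intro x hx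
      have h6 := (hτk x).1 hx
      have h7 := Cfsg.Agent.Lib.SchurLocal.mem_commutator_of_coprime Q (a := (x : Γ))
        (by rw [hQi]; exact hcop _ h6) (hcen h6) (hcomm h6) x.2
      exact h7
  obtain ⟨w, hw4, hwτ, hwall⟩ := Cfsg.Agent.Lib.Cl.DihMult.dih_core τ hτ
  have hw2 : τ (w ^ 2) = 1 := by
    rw [map_pow, hwτ]
    decide
  refine ⟨(w : Γ) ^ 2, ?_, ?_, ?_⟩
  · have : (w ^ 2) ^ 2 = 1 := by
      rw [← pow_mul]
      exact hw4
    have h8 := congrArg Subtype.val this
    simpa using h8
  · have := (hτk _).1 hw2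
    simpa using this
  · intro z hz
    obtain ⟨k, hk⟩ := hwall ⟨z, hmem z hz⟩ ((hτk _).2 hz)
    have hk' : (w ^ k : Q) = ⟨z, hmem z hz⟩ := hk
    have hz' : ((w : Γ)) ^ k = z := by
      have := congrArg Subtype.val hk'
      simpa using this
    have hkτ : τ w ^ k = 1 := by
      rw [← map_pow, hk']
      exact (hτk _).2 hz
    rw [hwτ] at hkτ
    have hpar : k % 4 = 0 ∨ k % 4 = 2 := by
      have h9 : ∀ j : ℕ, j < 4 → (r (-2) : DihedralGroup 4) ^ j = 1 → j = 0 ∨ j = 2 := by decide
      have h10 : (r (-2) : DihedralGroup 4) ^ 4 = 1 := by decide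
      have h11 : (r (-2) : DihedralGroup 4) ^ (k % 4) = 1 := by
        rw [← hkτ]
        conv_rhs => rw [← Nat.div_add_mod k 4, pow_add, pow_mul, h10, one_pow, one_mul]
      exact h9 _ (Nat.mod_lt _ (by norm_num)) h11
    have hw4' : (w : Γ) ^ 4 = 1 := by
      have h8 := congrArg Subtype.val hw4
      simpa using h8
    have hz2 : (w : Γ) ^ (k % 4) = z := by
      rw [← hz']
      conv_rhs => rw [← Nat.div_add_mod k 4, pow_add, pow_mul, hw4', one_pow, one_mul]
    rcases hpar with h | h
    · left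
      rw [← hz2, h, pow_zero]
    · right
      rw [← hz2, h]

variable {F : Type*} [Field F] [Fintype F]

theorem center_L : Subgroup.center L = ⊥ := by
  rw [eq_bot_iff]
  intro A hA
  rw [Matrix.SpecialLinearGroup.mem_center_iff] at hA
  obtain ⟨r, hr, e⟩ := hA
  have hr1 : r = 1 := by
    have h1 : ∀ r : ZMod 2, r ^ 3 = 1 → r = 1 := by decide
    exact h1 r (by simpa using hr)
  rw [Subgroup.mem_bot]
  apply Subtype.ext
  rw [← e, hr1]
  simp

/-- The projective special linear group is the special linear group. -/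
noncomputable def e₂ (hF : Fintype.card F = 2) : Matrix.ProjectiveSpecialLinearGroup (Fin 3) F ≃* L :=
  (Cfsg.Agent.Lib.Classical.RC.pslCongr (ZMod.ringEquivOfPrime F Nat.prime_two hF).symm).trans
    ((QuotientGroup.quotientMulEquivOfEq center_L).trans QuotientGroup.quotientBot)

theorem card_G (hF : Fintype.card F = 2) : Nat.card (Matrix.ProjectiveSpecialLinearGroup (Fin 3) F) = 168 := by
  rw [Nat.card_congr (e₂ hF).toEquiv, card_L]

/-- **S2087.** -/
theorem hasCyclic (hF : Fintype.card F = 2) :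
    HasCyclicSchurMultiplier (Matrix.ProjectiveSpecialLinearGroup (Fin 3) F) 2 := by
  classical
  haveI : Finite (Matrix.ProjectiveSpecialLinearGroup (Fin 3) F) := Nat.finite_of_card_ne_zero (by rw [card_G hF]; norm_num)
  constructor
  · -- the lower bound
    haveI hsimple : IsSimpleGroup (Matrix.ProjectiveSpecialLinearGroup (Fin 3) F) :=
      Cfsg.Agent.Lib.Classical.PSL_isSimple (by simp)
    obtain ⟨e⟩ := Cfsg.Agent.Lib.SmallSimple.psl_of_card_168 (card_G hF)
    haveI : Fact (Nat.Prime 7) := ⟨by norm_num⟩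
    let S := Matrix.SpecialLinearGroup (Fin 2) (ZMod 7)
    let σ₀ : S →* Matrix.ProjectiveSpecialLinearGroup (Fin 3) F :=
      e.symm.toMonoidHom.comp (QuotientGroup.mk' (Subgroup.center S))
    have hk : σ₀.ker = Subgroup.center S := by
      ext x
      show e.symm (x : S ⧸ Subgroup.center S) = 1 ↔ _
      rw [map_eq_one_iff _ e.symm.injective]
      exact QuotientGroup.eq_one_iff x
    have hcZ : Nat.card (Subgroup.center S) = 2 := by
      have h := Cfsg.Agent.Lib.Classical.card_center_SL (F := ZMod 7) 2 (by norm_num)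
      rw [ZMod.card] at h
      exact h
    have hS : IsStemExtension σ₀ := by
      refine ⟨e.symm.surjective.comp (QuotientGroup.mk'_surjective _), ?_, ?_⟩
      · rw [hk]
      · rw [hk]
        have hp : commutator S = ⊤ := Cfsg.Agent.Lib.Classical.Exc.sl2_perfect (by rw [ZMod.card]; norm_num)
        rw [hp]
        exact le_top
    have hcyc : IsCyclic σ₀.ker := by
      rw [hk]
      haveI : Fact (Nat.card (Subgroup.center S)).Prime := ⟨by rw [hcZ]; exact Nat.prime_two⟩
      exact isCyclic_of_prime_card rfl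
    have hc2 : Nat.card σ₀.ker = 2 := by
      rw [hk]
      exact hcZ
    have e1 : Multiplicative (ZMod 2) ≃* σ₀.ker := by
      have := zmodCyclicMulEquiv hcyc
      rw [hc2] at this
      exact this
    obtain ⟨Γ, i1, i2, σ, h1, h2⟩ := lower_ulift σ₀ hS e1.symm
    exact ⟨Γ, i1, i2, σ, h1, h2⟩
  · intro Γ _ _ σ hσ
    let σ' : Γ →* L := (e₂ hF).toMonoidHom.comp σ
    have hk : ∀ x, σ' x = 1 ↔ σ x = 1 := fun x => map_eq_one_iff _ (e₂ hF).injective
    have hs' : IsStemExtension σ' := by
      refine ⟨(e₂ hF).surjective.comp hσ.1, ?_, ?_⟩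
      · intro x hx
        exact hσ.2.1 ((hk x).1 hx)
      · intro x hx
        exact hσ.2.2 ((hk x).1 hx)
    obtain ⟨v, hv2, hv1, hall⟩ := stem_structure σ' hs'
    exact exists_surj_two σ.ker ((hk v).1 hv1) hv2 (fun x hx => hall x ((hk x).2 hx))

end Cfsg.Agent.Lib.SchurLocal.L32
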