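import Mathlib
import Cfsg.Agent.Lib.SchurLocal.Basic
import Cfsg.Agent.Lib.Classical.QuatSL2
import Cfsg.Agent.Lib.Classical.SL2Sylow

/-!
# Stem extensions of `SL₂(q)`

For `q ≠ 4, 9`, every finite stem extension of `SL₂(q)` is an isomorphism.
-/

set_option autoImplicit false

namespace Cfsg.Agent.Lib.SchurLocal

open scoped commutatorElement

variable {F : Type*} [Field F]

/-- `SL₂`. -/
abbrev SL2 (F : Type*) [Field F] := Matrix.SpecialLinearGroup (Fin 2) F

/-- Upper unipotent elements. -/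
def up (x : F) : SL2 F := ⟨!![1, x; 0, 1], by simp [Matrix.det_fin_two]⟩

/-- Diagonal elements. -/
def dg (l : F) (hl : l ≠ 0) : SL2 F := ⟨!![l, 0; 0, l⁻¹], by simp [Matrix.det_fin_two, hl]⟩

theorem up_add (x y : F) : up x * up y = up (x + y) := by
  apply Subtype.ext
  show (!![1, x; 0, 1] : Matrix (Fin 2) (Fin 2) F) * !![1, y; 0, 1] = !![1, x + y; 0, 1]
  ext i j
  fin_cases i <;> fin_cases j <;> simp [Matrix.mul_apply, Fin.sum_univ_two, add_comm]

theorem up_zero : up (0 : F) = 1 := by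
  apply Subtype.ext
  show (!![1, 0; 0, 1] : Matrix (Fin 2) (Fin 2) F) = 1
  ext i j
  fin_cases i <;> fin_cases j <;> simp

theorem up_inj {x y : F} (h : up x = up y) : x = y := by
  have := congrFun (congrFun (congrArg Subtype.val h) 0) 1
  simpa [up] using this

theorem dg_conj (l : F) (hl : l ≠ 0) (x : F) : dg l hl * up x * (dg l hl)⁻¹ = up (l ^ 2 * x) := by
  rw [mul_inv_eq_iff_eq_mul]
  apply Subtype.ext
  show (!![l, 0; 0, l⁻¹] : Matrix (Fin 2) (Fin 2) F) * !![1, x; 0, 1] = !![1, l ^ 2 * x; 0, 1] * !![l, 0; 0, l⁻¹]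
  ext i j
  fin_cases i <;> fin_cases j <;> simp [Matrix.mul_apply, Fin.sum_univ_two, hl]
  field_simp

/-- The upper unipotent subgroup. -/
def Usub (F : Type*) [Field F] : Subgroup (SL2 F) where
  carrier := {g | ∃ x, g = up x}
  mul_mem' := by
    rintro _ _ ⟨x, rfl⟩ ⟨y, rfl⟩
    exact ⟨_, up_add x y⟩
  one_mem' := ⟨0, up_zero.symm⟩
  inv_mem' := by
    rintro _ ⟨x, rfl⟩
    refine ⟨-x, ?_⟩
    apply inv_eq_of_mul_eq_one_right
    rw [up_add, add_neg_cancel, up_zero]

theorem Usub_index [Fintype F] : (Usub F).index = (Fintype.card F - 1) * (Fintype.card F + 1) := by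
  classical
  have h0 : Nat.card (Usub F) = Fintype.card F := by
    let f : F → Usub F := fun x => ⟨up x, x, rfl⟩
    have hf : Function.Bijective f := by
      constructor
      · intro x y e
        exact up_inj (Subtype.mk.inj e)
      · rintro ⟨_, x, rfl⟩
        exact ⟨x, rfl⟩
    rw [← Nat.card_congr (Equiv.ofBijective f hf), Nat.card_eq_fintype_card]
  have h := (Usub F).card_mul_index
  rw [h0, Cfsg.Agent.Lib.Classical.card_SL2] at h
  exact Nat.eq_of_mul_eq_mul_left (Fintype.card_pos) h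

section stem

variable {Γ : Type*} [Group Γ]

/-- The lifts of the upper unipotent subgroup commute, for `q ≠ 4, 9`. -/
theorem comm_of_char [Fintype F] (σ : Γ →* SL2 F) (hs : Function.Surjective σ) (hcen : σ.ker ≤ Subgroup.center Γ)
    (h4 : Fintype.card F ≠ 4) (h9 : Fintype.card F ≠ 9) {g h : Γ} (hg : σ g ∈ Usub F) (hh : σ h ∈ Usub F) :
    ⁅g, h⁆ = 1 := by
  classical
  choose L hL using fun x : F => hs (up x)
  have hk : ∀ x y, ⁅L x, L y⁆ ∈ Subgroup.center Γ := by
    intro x y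
    apply hcen
    rw [MonoidHom.mem_ker, map_commutatorElement, hL, hL, commutatorElement_eq_one_iff_mul_comm, up_add, up_add,
      add_comm]
  have hindep : ∀ {a b : Γ} {x y : F}, σ a = up x → σ b = up y → ⁅a, b⁆ = ⁅L x, L y⁆ := by
    intro a b x y ha hb
    have e1 : (L x)⁻¹ * a ∈ Subgroup.center Γ := hcen (by
      rw [MonoidHom.mem_ker, map_mul, map_inv, hL, ha, inv_mul_cancel])
    have e2 : (L y)⁻¹ * b ∈ Subgroup.center Γ := hcen (by
      rw [MonoidHom.mem_ker, map_mul, map_inv, hL, hb, inv_mul_cancel])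
    have := commutator_mul_central (g := L x) (h := L y) e1 e2
    rwa [mul_inv_cancel_left, mul_inv_cancel_left] at this
  letI : CommGroup (Subgroup.center Γ) :=
    { (inferInstance : Group (Subgroup.center Γ)) with
      mul_comm := fun a b => Subtype.ext (Subgroup.mem_center_iff.1 a.2 b).symm }
  let β : F → F → Subgroup.center Γ := fun x y => ⟨⁅L x, L y⁆, hk x y⟩
  have hc : ∀ {c : Γ} (d : Γ), c ∈ Subgroup.center Γ → d * c * d⁻¹ = c := by
    intro c d hc'
    rw [Subgroup.mem_center_iff.1 hc' d, mul_inv_cancel_right]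
  have h1 : ∀ x x' y, β (x + x') y = β x y * β x' y := by
    intro x x' y
    apply Subtype.ext
    show ⁅L (x + x'), L y⁆ = ⁅L x, L y⁆ * ⁅L x', L y⁆
    have e1 : σ (L x * L x') = up (x + x') := by rw [map_mul, hL, hL, up_add]
    rw [← hindep e1 (hL y)]
    have e2 : ⁅L x * L x', L y⁆ = (L x * ⁅L x', L y⁆ * (L x)⁻¹) * ⁅L x, L y⁆ := by
      simp only [commutatorElement_def]; group
    rw [e2, hc _ (hk x' y)]
    exact (Subgroup.mem_center_iff.1 (hk x y) _)
  have h2 : ∀ x y y', β x (y + y') = β x y * β x y' := by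
    intro x y y'
    apply Subtype.ext
    show ⁅L x, L (y + y')⁆ = ⁅L x, L y⁆ * ⁅L x, L y'⁆
    have e1 : σ (L y * L y') = up (y + y') := by rw [map_mul, hL, hL, up_add]
    rw [← hindep (hL x) e1]
    have e2 : ⁅L x, L y * L y'⁆ = ⁅L x, L y⁆ * (L y * ⁅L x, L y'⁆ * (L y)⁻¹) := by
      simp only [commutatorElement_def]; group
    rw [e2, hc _ (hk x y')]
  have hinv : ∀ l : F, l ≠ 0 → ∀ x y, β (l ^ 2 * x) (l ^ 2 * y) = β x y := by
    intro l hl x y
    apply Subtype.ext
    show ⁅L (l ^ 2 * x), L (l ^ 2 * y)⁆ = ⁅L x, L y⁆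
    obtain ⟨D, hD⟩ := hs (dg l hl)
    have e1 : ∀ z, σ (D * L z * D⁻¹) = up (l ^ 2 * z) := by
      intro z
      rw [map_mul, map_mul, map_inv, hD, hL, dg_conj]
    rw [← hindep (e1 x) (e1 y)]
    have e2 : ⁅D * L x * D⁻¹, D * L y * D⁻¹⁆ = D * ⁅L x, L y⁆ * D⁻¹ := by
      simp only [commutatorElement_def]; group
    rw [e2, hc _ (hk x y)]
  have halt : ∀ x, β x x = 1 := by
    intro x
    apply Subtype.ext
    show ⁅L x, L x⁆ = 1
    exact commutatorElement_self _
  obtain ⟨x, hx⟩ := hg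
  obtain ⟨y, hy⟩ := hh
  rw [hindep hx hy]
  exact congrArg Subtype.val (biadd_trivial β h1 h2 hinv halt h4 h9 x y)

/-- Lifts of a cyclic subgroup commute. -/
theorem comm_of_cyclic (σ : Γ →* SL2 F) (hs : Function.Surjective σ) (hcen : σ.ker ≤ Subgroup.center Γ)
    (R : Subgroup (SL2 F)) (hR : IsCyclic R) {g h : R.comap σ} : ⁅g, h⁆ = 1 := by
  let f : R.comap σ →* R := σ.subgroupComap R
  have hk : f.ker ≤ Subgroup.center (R.comap σ) := by
    intro a ha
    have h1 : σ (a : Γ) = 1 := congrArg Subtype.val ha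
    have h2 : (a : Γ) ∈ Subgroup.center Γ := hcen h1
    rw [Subgroup.mem_center_iff]
    intro b
    apply Subtype.ext
    exact Subgroup.mem_center_iff.1 h2 b
  have := MonoidHom.isMulCommutative_of_isCyclic_of_ker_le_center f hk
  rw [commutatorElement_eq_one_iff_mul_comm]
  exact mul_comm' g h

end stem

/-- **Stem extensions of `SL₂(q)`**, `q ≠ 4, 9`, are trivial. -/
theorem ker_eq_bot_SL2 [Fintype F] {Γ : Type*} [Group Γ] [Finite Γ] (σ : Γ →* SL2 F) (hσ : Cfsg.IsStemExtension σ)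
    (h4 : Fintype.card F ≠ 4) (h9 : Fintype.card F ≠ 9) : σ.ker = ⊥ := by
  classical
  obtain ⟨hs, hcen, hcomm⟩ := hσ
  rw [eq_bot_iff]
  intro a ha
  rw [Subgroup.mem_bot]
  by_contra hne
  have hord : orderOf a ≠ 1 := fun h => hne (orderOf_eq_one_iff.1 h)
  obtain ⟨ℓ, hℓ, hdvd⟩ := Nat.exists_prime_and_dvd hord
  haveI : Fact ℓ.Prime := ⟨hℓ⟩
  have hbo : orderOf (a ^ (orderOf a / ℓ)) = ℓ := orderOf_pow_orderOf_div (orderOf_pos a).ne' hdvd
  set b := a ^ (orderOf a / ℓ) with hb
  have hbk : b ∈ σ.ker := σ.ker.pow_mem ha _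
  have hb1 : σ b = 1 := hbk
  have hbne : b ≠ 1 := by
    intro h
    rw [h, orderOf_one] at hbo
    exact hℓ.one_lt.ne hbo
  have hbc : b ∈ Subgroup.center Γ := hcen hbk
  have hbd : b ∈ commutator Γ := hcomm hbk
  -- transfer
  have htr : ∀ R : Subgroup (SL2 F), ¬ ℓ ∣ R.index → ∀ hbQ : b ∈ R.comap σ,
      (⟨b, hbQ⟩ : R.comap σ) ∈ commutator (R.comap σ) := by
    intro R hR hbQ
    apply mem_commutator_of_coprime _ _ hbc hbd
    rw [hbo, Subgroup.index_comap_of_surjective _ hs]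
    exact ((Nat.Prime.coprime_iff_not_dvd hℓ).2 hR).symm
  have hmem : ∀ R : Subgroup (SL2 F), b ∈ R.comap σ := by
    intro R
    show σ b ∈ R
    rw [hb1]
    exact R.one_mem
  have habel : ∀ R : Subgroup (SL2 F), ¬ ℓ ∣ R.index → (∀ g h : R.comap σ, ⁅g, h⁆ = 1) → False := by
    intro R hR hc
    have h1 := htr R hR (hmem R)
    have h2 : commutator (R.comap σ) = ⊥ := by
      rw [eq_bot_iff, commutator_def, Subgroup.commutator_le]
      intro x _ y _
      rw [Subgroup.mem_bot]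
      exact hc x y
    rw [h2, Subgroup.mem_bot] at h1
    exact hbne (congrArg Subtype.val h1)
  -- the characteristic
  obtain ⟨p, hch⟩ := CharP.exists F
  obtain ⟨f, hp, hq⟩ := FiniteField.card F p
  haveI : Fact p.Prime := ⟨hp⟩
  set q := Fintype.card F with hqdef
  have hq1 : 1 < q := Fintype.one_lt_card
  have hpq : p ∣ q := by rw [hq]; exact dvd_pow_self p f.pos.ne'
  by_cases hℓp : ℓ = p
  · subst hℓp
    -- the unipotent subgroup
    refine habel (Usub F) ?_ ?_
    · rw [Usub_index, hℓ.dvd_mul]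
      rintro (h | h)
      · have : ℓ ∣ 1 := by
          have := Nat.dvd_sub hpq h
          rwa [show q - (q - 1) = 1 by omega] at this
        exact hℓ.one_lt.ne' (Nat.dvd_one.1 this)
      · have : ℓ ∣ 1 := (Nat.dvd_add_right hpq).1 h
        exact hℓ.one_lt.ne' (Nat.dvd_one.1 this)
    · intro g h
      apply Subtype.ext
      exact comm_of_char σ hs hcen h4 h9 g.2 h.2
  by_cases hℓ2 : ℓ = 2
  · subst hℓ2
    have hqodd : q % 2 = 1 := by
      by_contra hc
      have h2q : 2 ∣ q := by omega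
      rw [hq] at h2q
      have := (Nat.prime_dvd_prime_iff_eq hℓ hp).1 (hℓ.dvd_of_dvd_pow h2q)
      exact hℓp this
    let P : Sylow 2 (SL2 F) := default
    obtain ⟨k, -, ⟨e⟩⟩ : ∃ k : ℕ, 1 ≤ k ∧ Nonempty ((P : Subgroup (SL2 F)) ≃* QuaternionGroup (2 ^ k)) := by
      have h4' : q % 4 = 1 ∨ q % 4 = 3 := by omega
      rcases h4' with h | h
      · exact Cfsg.Agent.Lib.Classical.Quat.sylow_case_one h P
      · exact Cfsg.Agent.Lib.Classical.Quat.sylow_case_three h P
    haveI : NeZero (2 ^ k) := ⟨by positivity⟩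
    set R : Subgroup (SL2 F) := (P : Subgroup (SL2 F)) with hR
    have hidx : ¬ 2 ∣ R.index := P.not_dvd_index
    have h1 := htr R hidx (hmem R)
    let ρ : R.comap σ →* QuaternionGroup (2 ^ k) := e.toMonoidHom.comp (σ.subgroupComap R)
    have hρs : Function.Surjective ρ := e.surjective.comp (σ.subgroupComap_surjective_of_surjective R hs)
    have hρk : ρ.ker ≤ Subgroup.center (R.comap σ) := by
      intro x hx
      have h3 : (σ.subgroupComap R) x = 1 := e.injective (by rw [map_one]; exact hx)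
      have h5 : σ (x : Γ) = 1 := congrArg Subtype.val h3
      have h6 := hcen h5
      rw [Subgroup.mem_center_iff]
      intro y
      apply Subtype.ext
      exact Subgroup.mem_center_iff.1 h6 y
    have h7 : ρ ⟨b, hmem R⟩ = 1 := by
      have : (σ.subgroupComap R) ⟨b, hmem R⟩ = 1 := Subtype.ext hb1
      show e _ = 1
      rw [this, map_one]
    have h8 := eq_one_of_quaternion ρ hρs hρk h7 h1
    exact hbne (congrArg Subtype.val h8)
  -- odd primes prime to the characteristic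
  have hℓq : ¬ ℓ ∣ q := by
    intro h
    rw [hq] at h
    exact hℓp ((Nat.prime_dvd_prime_iff_eq hℓ hp).1 (hℓ.dvd_of_dvd_pow h))
  let P : Sylow ℓ (SL2 F) := default
  have hcard : Nat.card (SL2 F) = q * ((q - 1) * (q + 1)) := Cfsg.Agent.Lib.Classical.card_SL2
  have hnot : ¬ (ℓ ∣ q - 1 ∧ ℓ ∣ q + 1) := by
    rintro ⟨h3, h5⟩
    have : ℓ ∣ 2 := by
      have := Nat.dvd_sub h5 h3
      rwa [show q + 1 - (q - 1) = 2 by omega] at this
    exact hℓ2 ((Nat.prime_dvd_prime_iff_eq hℓ Nat.prime_two).1 this)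
  have hcyc : IsCyclic (P : Subgroup (SL2 F)) := by
    by_cases hl : ℓ ∣ q - 1
    · obtain ⟨T, hT, hTc⟩ := Cfsg.Agent.Lib.Classical.Tori.exists_split_torus (F := F)
      apply Cfsg.Agent.Lib.Classical.Tori.sylow_cyclic ℓ T hT _ P
      rw [hTc, ← hqdef, hcard, Nat.factorization_mul (by omega) (mul_ne_zero (by omega) (by omega)),
        Nat.factorization_mul (by omega) (by omega)]
      have h3 : q.factorization ℓ = 0 := Nat.factorization_eq_zero_of_not_dvd hℓq
      have h5 : (q + 1).factorization ℓ = 0 := Nat.factorization_eq_zero_of_not_dvd (fun h => hnot ⟨hl, h⟩)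
      simp only [Finsupp.add_apply, h3, h5]
      omega
    · obtain ⟨T, hT, hTc⟩ := Cfsg.Agent.Lib.Classical.Tori.exists_nonsplit_torus (F := F)
      apply Cfsg.Agent.Lib.Classical.Tori.sylow_cyclic ℓ T hT _ P
      rw [hTc, ← hqdef, hcard, Nat.factorization_mul (by omega) (mul_ne_zero (by omega) (by omega)),
        Nat.factorization_mul (by omega) (by omega)]
      have h3 : q.factorization ℓ = 0 := Nat.factorization_eq_zero_of_not_dvd hℓq
      have h5 : (q - 1).factorization ℓ = 0 := Nat.factorization_eq_zero_of_not_dvd hl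
      simp only [Finsupp.add_apply, h3, h5]
      omega
  exact habel _ P.not_dvd_index (fun g h => comm_of_cyclic σ hs hcen _ hcyc)

/-- **S2117.** -/
theorem hasCyclic_SL2 [Fintype F] (h4 : Fintype.card F ≠ 4) (h9 : Fintype.card F ≠ 9) :
    Cfsg.HasCyclicSchurMultiplier (SL2 F) 1 :=
  Cfsg.Agent.Lib.KnownSimple.Schur.hasCyclic_one fun _ _ _ σ hσ => ker_eq_bot_SL2 σ hσ h4 h9

end Cfsg.Agent.Lib.SchurLocal
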