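import Mathlib
import Cfsg.Agent.Lib.SchurLocal.A67
import Cfsg.Agent.Lib.SchurLocal.SL2
import Cfsg.Agent.S0254

/-!
# The multiplier of `SL₂(9)`
-/

set_option autoImplicit false

namespace Cfsg.Agent.Lib.SchurLocal.SL29

open Cfsg Cfsg.Agent.Lib.KnownSimple.Schur Cfsg.Agent.Lib.SchurLocal.Cover Cfsg.Agent.Lib.SchurLocal.A67
open scoped commutatorElement

universe u

variable {F : Type u} [Field F] [Fintype F]

theorem up_pow (s : F) (k : ℕ) : up s ^ k = up ((k : F) * s) := by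
  induction k with
  | zero => simp [up_zero]
  | succ k ih =>
    rw [pow_succ, ih, up_add]
    congr 1
    push_cast
    ring

theorem char_three (hF : Fintype.card F = 9) : CharP F 3 := by
  obtain ⟨p, hch⟩ := CharP.exists F
  obtain ⟨f, hp, hq⟩ := FiniteField.card F p
  have h1 : p ∣ 3 ^ 2 := by
    have h2 : p ^ (f : ℕ) = 3 ^ 2 := by
      rw [← hq, hF]
      norm_num
    rw [← h2]
    exact dvd_pow_self p f.pos.ne'
  have h3 : p = 3 := (Nat.prime_dvd_prime_iff_eq hp Nat.prime_three).1 (hp.dvd_of_dvd_pow h1)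
  subst h3
  exact hch

/-- Two additive generators of the field. -/
theorem exists_gen (hF : Fintype.card F = 9) : ∃ y₀ : F, ∀ t : F, ∃ i j : ℕ, t = (i : F) * 1 + (j : F) * y₀ := by
  classical
  haveI : CharP F 3 := char_three hF
  haveI : Fact (Nat.Prime 3) := ⟨Nat.prime_three⟩
  let ι : ZMod 3 →+* F := ZMod.castHom (dvd_refl 3) F
  have hι : Function.Injective ι := ι.injective
  have hns : ¬ Function.Surjective ι := by
    intro h
    have := Fintype.card_le_of_surjective ι h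
    rw [hF, ZMod.card] at this
    omega
  simp only [Function.Surjective] at hns
  push Not at hns
  obtain ⟨y₀, hy₀⟩ := hns
  let g : ZMod 3 × ZMod 3 → F := fun a => ι a.1 + ι a.2 * y₀
  have hg : Function.Injective g := by
    rintro ⟨a, b⟩ ⟨c, d⟩ h
    have h1 : ι a + ι b * y₀ = ι c + ι d * y₀ := h
    by_cases hbd : b = d
    · subst hbd
      have h2 : ι a = ι c := add_right_cancel h1
      rw [hι h2]
    · exfalso
      have h2 : b - d ≠ 0 := sub_ne_zero.2 hbd
      have h3 : ι (b - d) ≠ 0 := by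
        rw [Ne, map_eq_zero]
        exact h2
      apply hy₀ ((c - a) / (b - d))
      rw [map_div₀, map_sub, map_sub, div_eq_iff (by rw [← map_sub]; exact h3)]
      linear_combination -h1
  have hb : Function.Bijective g := by
    rw [Fintype.bijective_iff_injective_and_card]
    refine ⟨hg, ?_⟩
    rw [Fintype.card_prod, ZMod.card, hF]
  refine ⟨y₀, fun t => ?_⟩
  obtain ⟨⟨a, b⟩, hab⟩ := hb.2 t
  refine ⟨a.val, b.val, ?_⟩
  have e : ∀ c : ZMod 3, ι c = ((c.val : ℕ) : F) := by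
    intro c
    conv_lhs => rw [← ZMod.natCast_zmod_val c]
    exact map_natCast ι _
  rw [← hab]
  show ι a + ι b * y₀ = _
  rw [e a, e b, mul_one]

/-- The upper bound. -/
theorem upper (hF : Fintype.card F = 9) {Γ : Type*} [Group Γ] [Finite Γ] (σ : Γ →* SL2 F)
    (hσ : IsStemExtension σ) : ∃ π : Multiplicative (ZMod 3) →* σ.ker, Function.Surjective π := by
  classical
  haveI : CharP F 3 := char_three hF
  obtain ⟨y₀, hy₀⟩ := exists_gen hF
  obtain ⟨hs, hcen, hcomm⟩ := id hσ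
  have h3c : ((3 : ℕ) : F) = 0 := CharP.cast_eq_zero F 3
  have hxm : up (1 : F) ∈ Usub F := ⟨1, rfl⟩
  have hym : up y₀ ∈ Usub F := ⟨y₀, rfl⟩
  have hxy : up (1 : F) * up y₀ = up y₀ * up 1 := by
    rw [up_add, up_add, add_comm]
  have hx3 : up (1 : F) ^ 3 = 1 := by
    rw [up_pow, h3c, zero_mul, up_zero]
  have hR : ∀ g ∈ Usub F, ∃ i j : ℕ, g = up (1 : F) ^ i * up y₀ ^ j := by
    rintro _ ⟨t, rfl⟩
    obtain ⟨i, j, rfl⟩ := hy₀ t
    refine ⟨i, j, ?_⟩
    rw [up_pow, up_pow, up_add]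
  obtain ⟨c, hc3, hc1, hcall⟩ := three_part σ hσ (Usub F) hxm hym hxy hx3 hR
  have hI : (Usub F).index = 80 := by
    rw [Usub_index, hF]
  have hcard : Nat.card (SL2 F) = 720 := by
    rw [Cfsg.Agent.Lib.Classical.card_SL2, hF]
  apply exists_surj_cyclic σ.ker (MonoidHom.mem_ker.2 hc1) hc3
  intro a ha
  have ha1 : σ a = 1 := ha
  have h5 : ¬ 5 ∣ orderOf a := not_dvd_orderOf_ker hσ ha (by norm_num) (by rw [hcard]; norm_num)
  have h2 : ¬ 2 ∣ orderOf a := by
    intro hdvd
    haveI : Fact (Nat.Prime 2) := ⟨Nat.prime_two⟩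
    have hbo : orderOf (a ^ (orderOf a / 2)) = 2 := orderOf_pow_orderOf_div (orderOf_pos a).ne' hdvd
    obtain ⟨b, hb⟩ : ∃ b, b = a ^ (orderOf a / 2) := ⟨_, rfl⟩
    rw [← hb] at hbo
    have hb1 : σ b = 1 := by
      rw [hb, map_pow, ha1, one_pow]
    have hbne : b ≠ 1 := by
      intro h
      rw [h, orderOf_one] at hbo
      omega
    let P : Sylow 2 (SL2 F) := default
    obtain ⟨k, -, ⟨e⟩⟩ : ∃ k : ℕ, 1 ≤ k ∧ Nonempty ((P : Subgroup (SL2 F)) ≃* QuaternionGroup (2 ^ k)) :=
      Cfsg.Agent.Lib.Classical.Quat.sylow_case_one (by rw [hF]) P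
    haveI : NeZero (2 ^ k) := ⟨by positivity⟩
    obtain ⟨R, hR'⟩ : ∃ R : Subgroup (SL2 F), R = (P : Subgroup (SL2 F)) := ⟨_, rfl⟩
    rw [← hR'] at e
    have hidx : ¬ 2 ∣ R.index := by
      rw [hR']
      exact P.not_dvd_index
    have hbR : b ∈ R.comap σ := by
      show σ b ∈ R
      rw [hb1]
      exact R.one_mem
    have h1 : (⟨b, hbR⟩ : R.comap σ) ∈ commutator (R.comap σ) := by
      apply mem_commutator_of_coprime _ _ (hcen hb1) (hcomm hb1)
      rw [hbo, Subgroup.index_comap_of_surjective _ hs]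
      exact ((Nat.Prime.coprime_iff_not_dvd Nat.prime_two).2 hidx).symm
    let ρ : R.comap σ →* QuaternionGroup (2 ^ k) := e.toMonoidHom.comp (σ.subgroupComap R)
    have hρs : Function.Surjective ρ := e.surjective.comp (σ.subgroupComap_surjective_of_surjective R hs)
    have hρk : ρ.ker ≤ Subgroup.center (R.comap σ) := by
      intro x hx
      have h3 : (σ.subgroupComap R) x = 1 := e.injective (by rw [map_one]; exact hx)
      have h5 : σ (x : Γ) = 1 := congrArg Subtype.val h3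
      have h6 := hcen h5
      rw [Subgroup.mem_center_iff]
      intro y
      apply Subtype.ext
      exact Subgroup.mem_center_iff.1 h6 y
    have h7 : ρ ⟨b, hbR⟩ = 1 := by
      have : (σ.subgroupComap R) ⟨b, hbR⟩ = 1 := Subtype.ext hb1
      show e _ = 1
      rw [this, map_one]
    have h8 := eq_one_of_quaternion ρ hρs hρk h7 h1
    exact hbne (congrArg Subtype.val h8)
  apply hcall a ha1
  rw [hI, show (80 : ℕ) = 2 ^ 4 * 5 by norm_num]
  exact Nat.Coprime.mul_left (Nat.Coprime.pow_left _ ((Nat.Prime.coprime_iff_not_dvd Nat.prime_two).2 h2))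
    ((Nat.Prime.coprime_iff_not_dvd (by norm_num)).2 h5)

/-- The lower bound. -/
theorem lower (hF : Fintype.card F = 9) :
    ∃ (Γ : Type u) (_ : Group Γ) (_ : Finite Γ) (σ : Γ →* SL2 F), IsStemExtension σ ∧
      Nonempty (σ.ker ≃* Multiplicative (ZMod 3)) := by
  classical
  obtain ⟨e⟩ := Cfsg.Agent.S0254.result hF
  let σ₁ : SL2 F →* alternatingGroup (Fin 6) := e.toMonoidHom.comp (QuotientGroup.mk' (Subgroup.center (SL2 F)))
  have h₁ : Function.Surjective σ₁ := e.surjective.comp (QuotientGroup.mk'_surjective _)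
  have he : ∀ w, σ₁ w = 1 → w ^ 2 = 1 := by
    intro w hw
    have h1 : (QuotientGroup.mk' (Subgroup.center (SL2 F))) w = 1 := e.injective (by rw [map_one]; exact hw)
    have h2 : w ∈ Subgroup.center (SL2 F) := (QuotientGroup.eq_one_iff _).1 h1
    rw [Matrix.SpecialLinearGroup.mem_center_iff] at h2
    obtain ⟨r, hr, e'⟩ := h2
    rw [Fintype.card_fin] at hr
    apply Subtype.ext
    rw [Matrix.SpecialLinearGroup.coe_pow, ← e', ← map_pow, hr, map_one]
    rfl
  obtain ⟨C₂, i₂, f₂, σ₂, z₂, u₂, v₂, h₂, e₂⟩ := cover3 (n := 6) (le_refl 6) (by norm_num)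
  have c₂ : z₂ ∈ commutator C₂ := by
    rw [← e₂, commutator_def]
    exact Subgroup.commutator_mem_commutator (Subgroup.mem_top _) (Subgroup.mem_top _)
  obtain ⟨ξ, hξ, hξc⟩ := h₂.fib_left h₁ he (by norm_num : Nat.Coprime 2 3) c₂
  exact ⟨Fib σ₁ σ₂, inferInstance, inferInstance, _, hξ.stem hξc, hξ.kerEquiv⟩

/-- **The multiplier of `SL₂(9)`.** -/
theorem hasCyclic (hF : Fintype.card F = 9) : HasCyclicSchurMultiplier (SL2 F) 3 := by
  constructor
  · exact lower hF
  · intro Γ _ _ σ hσ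
    exact upper hF σ hσ

end Cfsg.Agent.Lib.SchurLocal.SL29
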