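import Mathlib
import Cfsg.Agent.Lib.SchurLocal.Basic
import Cfsg.Agent.Lib.Sz.Cent
import Cfsg.Agent.Lib.Sz.Syl2
import Cfsg.Agent.Lib.Sz.Lie
import Cfsg.Agent.Lib.Sz.Bridge

/-!
# Stem extensions of `Sz(q)`, `q ≥ 32`

Odd Sylow subgroups are cyclic.  For the Sylow `2`-subgroup `T`, with preimage `Q`, and `W` the preimage of `Z(T)`,
three forms on the field vanish (the polynomial trick with the torus): `W` is abelian, `W` is central in `Q`, and
the averaged commutator form `T/Z × T/Z → W`.  So the averaging map `N` on `W` kills `Q'` and is the identity on the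
involutions of the kernel.
-/

set_option autoImplicit false

namespace Cfsg.Agent.Lib.SchurLocal

open scoped commutatorElement

section twist

variable {F : Type*} [Field F] [Fintype F] {A : Type*} [CommGroup A]

/-- The twisted form of `biadd_trivial`. -/
theorem biadd_twist (p f : ℕ) [Fact p.Prime] [CharP F p] (hcard : Fintype.card F = p ^ f) (hf : 0 < f)
    (β : F → F → A) (h1 : ∀ x x' y, β (x + x') y = β x y * β x' y) (h2 : ∀ x y y', β x (y + y') = β x y * β x y')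
    (k : ℕ) (hinv : ∀ l : F, l ≠ 0 → ∀ x y, β (l * x) (l ^ k * y) = β x y)
    (hnot : ∀ i < f, ¬ (Fintype.card F - 1) ∣ p ^ i + k) : ∀ x y, β x y = 1 := by
  classical
  have hz1 : ∀ y, β 0 y = 1 := by
    intro y
    have := h1 0 0 y
    rw [add_zero] at this
    exact (mul_eq_left.1 this.symm)
  have hz2 : ∀ x, β x 0 = 1 := by
    intro y
    have := h2 y 0 0
    rw [add_zero] at this
    exact (mul_eq_left.1 this.symm)
  have hn1 : ∀ (n : ℕ) x y, β ((n : F) * x) y = β x y ^ n := by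
    intro n x y
    induction n with
    | zero => simp [hz1]
    | succ k ih => rw [Nat.cast_succ, add_mul, one_mul, h1, ih, pow_succ]
  have hn2 : ∀ (n : ℕ) x y, β x ((n : F) * y) = β x y ^ n := by
    intro n x y
    induction n with
    | zero => simp [hz2]
    | succ k ih => rw [Nat.cast_succ, add_mul, one_mul, h2, ih, pow_succ]
  letI : Algebra (ZMod p) F := ZMod.algebra F p
  have hcast : ∀ c : ZMod p, algebraMap (ZMod p) F c = (c.val : F) := by
    intro c
    conv_lhs => rw [← ZMod.natCast_zmod_val c]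
    exact map_natCast _ _
  obtain ⟨t, ht⟩ := IsCyclic.exists_ofOrder_eq_natCard (α := Fˣ)
  have hcu : Nat.card Fˣ = Fintype.card F - 1 := by
    rw [Nat.card_eq_fintype_card, Fintype.card_units]
  set z : F := (t : F) with hz
  have hz0 : z ≠ 0 := t.ne_zero
  set w : F := z⁻¹ ^ k with hw
  have hpow : ∀ (n : ℕ) x y, β (z ^ n * x) y = β x (w ^ n * y) := by
    intro n x y
    have hl : z ^ n ≠ 0 := pow_ne_zero _ hz0
    have := hinv _ hl x (w ^ n * y)
    have e1 : (z ^ n) ^ k * (w ^ n * y) = y := by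
      rw [← mul_assoc, hw, ← pow_mul, ← pow_mul, mul_comm n k, pow_mul, pow_mul, ← mul_pow, ← mul_pow,
        mul_inv_cancel₀ hz0, one_pow, one_pow, one_mul]
    rwa [e1] at this
  have hpol : ∀ (g : Polynomial (ZMod p)) x y,
      β (Polynomial.aeval z g * x) y = β x (Polynomial.aeval w g * y) := by
    intro g x y
    induction g using Polynomial.induction_on' with
    | add g₁ g₂ i1 i2 =>
        rw [map_add, map_add, add_mul, add_mul, h1, h2, i1, i2]
    | monomial n c =>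
        rw [Polynomial.aeval_monomial, Polynomial.aeval_monomial, hcast, mul_assoc, hn1, mul_assoc, hn2, hpow]
  have hint : IsIntegral (ZMod p) z := Algebra.IsIntegral.isIntegral z
  have hM := minpoly.aeval (ZMod p) z
  by_cases hd : Polynomial.aeval w (minpoly (ZMod p) z) = 0
  · exfalso
    have hconj : IsConjRoot (ZMod p) z w := (isConjRoot_iff_aeval_eq_zero hint).2 hd
    obtain ⟨σ, hσ⟩ := isConjRoot_iff_exists_algEquiv.1 hconj.symm
    obtain ⟨n, hn⟩ := FiniteField.exists_forall_apply_eq_pow (ZMod p) p F σ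
    rw [Nat.card_zmod] at hn
    have h5 : z ^ (p ^ n) = w := by rw [← hn]; exact hσ
    set i := n % f with hi
    have hilt : i < f := Nat.mod_lt _ hf
    have hidiv : n = f * (n / f) + i := (Nat.div_add_mod n f).symm
    have h6 : z ^ (p ^ i) = w := by
      rw [← h5]
      have e1 : p ^ n = (Fintype.card F) ^ (n / f) * p ^ i := by
        rw [hcard, ← pow_mul]
        conv_lhs => rw [hidiv, pow_add]
      rw [e1, pow_mul, FiniteField.pow_card_pow]
    have h7 : z ^ (p ^ i + k) = 1 := by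
      rw [pow_add, h6, hw, inv_pow, inv_mul_cancel₀ (pow_ne_zero _ hz0)]
    have h8 : t ^ (p ^ i + k) = 1 := by
      apply Units.ext
      rw [Units.val_pow_eq_pow_val, Units.val_one]
      exact h7
    have h9' := orderOf_dvd_of_pow_eq_one h8
    rw [ht, hcu] at h9'
    exact hnot i hilt h9'
  · intro x y
    have h6 := hpol (minpoly (ZMod p) z) x ((Polynomial.aeval w (minpoly (ZMod p) z))⁻¹ * y)
    rw [hM, zero_mul, hz1, ← mul_assoc, mul_inv_cancel₀ hd, one_mul] at h6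
    exact h6.symm

end twist

section local_sz

variable {F : Type*} [Field F] [Fintype F] {G Γ : Type*} [Group G] [Group Γ]

/-- The data of a central extension of a group with a Suzuki type `2`-local subgroup. -/
structure SzLoc (σ : Γ →* G) (u : F → F → G) (d : Fˣ → G) (s : ℕ) : Prop where
  surj : Function.Surjective σ
  cen : σ.ker ≤ Subgroup.center Γ
  u_mul : ∀ a b c e, u a b * u c e = u (a + c) (b + e + a ^ s * c)
  u_zero : u 0 0 = 1
  d_mul : ∀ l l', d l * d l' = d (l * l')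
  d_conj : ∀ (l : Fˣ) a b, d l * u a b * (d l)⁻¹ = u ((l : F) ^ s * a) ((l : F) ^ s * l * l * b)
  s_pos : 0 < s
  s_surj : ∀ a : F, a ≠ 0 → ∃ l : Fˣ, (l : F) ^ s = a
  s_surj2 : ∀ a : F, a ≠ 0 → ∃ l : Fˣ, (l : F) ^ s * l * l = a
  s_sq : ∀ a : F, (a ^ s) ^ s = a ^ 2
  two : (2 : F) = 0

variable {σ : Γ →* G} {u : F → F → G} {d : Fˣ → G} {s : ℕ}

namespace SzLoc

variable (h : SzLoc σ u d s)
include h

theorem zero_pow' : (0 : F) ^ s = 0 := zero_pow h.s_pos.ne'

theorem u_zz (b b' : F) : u 0 b * u 0 b' = u 0 (b + b') := by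
  rw [h.u_mul, h.zero_pow', zero_mul, add_zero, add_zero]

theorem u_aa (a a' : F) : u a 0 * u a' 0 = u (a + a') (a ^ s * a') := by
  rw [h.u_mul, add_zero, zero_add]

theorem u_az (a b t : F) : u a b * u 0 t = u a (b + t) := by
  rw [h.u_mul, mul_zero, add_zero, add_zero]

theorem u_za (t a b : F) : u 0 t * u a b = u a (t + b) := by
  rw [h.u_mul, h.zero_pow', zero_mul, add_zero, zero_add]

theorem comm_u (a b c e : F) : ⁅u a b, u c e⁆ = u 0 (a ^ s * c + c ^ s * a) := by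
  rw [commutatorElement_def]
  have h1 : u a b * u c e = u 0 (a ^ s * c + c ^ s * a) * (u c e * u a b) := by
    rw [h.u_mul c e a b, h.u_za, h.u_mul]
    congr 1
    · ring
    · linear_combination (-(c ^ s * a)) * h.two
  rw [h1]
  group

/-- Elements with the same image have the same conjugation action. -/
theorem conj_eq {g g' : Γ} (e : σ g = σ g') (w : Γ) : g * w * g⁻¹ = g' * w * g'⁻¹ := by
  have hc : g⁻¹ * g' ∈ Subgroup.center Γ := h.cen (by
    rw [MonoidHom.mem_ker, map_mul, map_inv, e, inv_mul_cancel])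
  have e1 : w * (g⁻¹ * g') = (g⁻¹ * g') * w := Subgroup.mem_center_iff.1 hc w
  have e2 : g' = g * (g⁻¹ * g') := by rw [mul_inv_cancel_left]
  rw [e2]
  generalize g⁻¹ * g' = c at e1 e2
  calc g * w * g⁻¹ = g * (w * c) * c⁻¹ * g⁻¹ := by group
    _ = g * (c * w) * c⁻¹ * g⁻¹ := by rw [e1]
    _ = _ := by group

/-- Commutators only depend on the images in the second variable. -/
theorem comm_right {g w w' : Γ} (e : σ w = σ w') : ⁅g, w⁆ = ⁅g, w'⁆ := by
  have hc : w⁻¹ * w' ∈ Subgroup.center Γ := h.cen (by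
    rw [MonoidHom.mem_ker, map_mul, map_inv, e, inv_mul_cancel])
  have := commutator_mul_central (g := g) (h := w) (Subgroup.one_mem _) hc
  rw [mul_one, mul_inv_cancel_left] at this
  exact this.symm

theorem comm_left {g g' w : Γ} (e : σ g = σ g') : ⁅g, w⁆ = ⁅g', w⁆ := by
  have hc : g⁻¹ * g' ∈ Subgroup.center Γ := h.cen (by
    rw [MonoidHom.mem_ker, map_mul, map_inv, e, inv_mul_cancel])
  have := commutator_mul_central (g := g) (h := w) hc (Subgroup.one_mem _)
  rw [mul_one, mul_inv_cancel_left] at this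
  exact this.symm

theorem d_inv_conj (l : Fˣ) (a b : F) (x : Γ) (D : Γ) (hD : σ D = d l) (hx : σ x = u a b) :
    σ (D * x * D⁻¹) = u ((l : F) ^ s * a) ((l : F) ^ s * l * l * b) := by
  rw [map_mul, map_mul, map_inv, hD, hx, h.d_conj]

/-- Step 1: the preimage of `Z(T)` is abelian. -/
theorem W_comm (h4 : Fintype.card F ≠ 4) (h9 : Fintype.card F ≠ 9) {w w' : Γ} {b b' : F} (hw : σ w = u 0 b)
    (hw' : σ w' = u 0 b') : ⁅w, w'⁆ = 1 := by
  classical
  choose Y hY using fun x : F => h.surj (u 0 x)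
  have hk : ∀ x y, ⁅Y x, Y y⁆ ∈ Subgroup.center Γ := by
    intro x y
    apply h.cen
    rw [MonoidHom.mem_ker, map_commutatorElement, hY, hY, h.comm_u]
    simp only [h.zero_pow', zero_mul, add_zero, h.u_zero]
  letI : CommGroup (Subgroup.center Γ) :=
    { (inferInstance : Group (Subgroup.center Γ)) with
      mul_comm := fun a b => Subtype.ext (Subgroup.mem_center_iff.1 a.2 b).symm }
  let β : F → F → Subgroup.center Γ := fun x y => ⟨⁅Y x, Y y⁆, hk x y⟩
  have hc : ∀ {c : Γ} (e : Γ), c ∈ Subgroup.center Γ → e * c * e⁻¹ = c := by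
    intro c e hc'
    rw [Subgroup.mem_center_iff.1 hc' e, mul_inv_cancel_right]
  have h1 : ∀ x x' y, β (x + x') y = β x y * β x' y := by
    intro x x' y
    apply Subtype.ext
    show ⁅Y (x + x'), Y y⁆ = ⁅Y x, Y y⁆ * ⁅Y x', Y y⁆
    have e1 : σ (Y (x + x')) = σ (Y x * Y x') := by rw [map_mul, hY, hY, hY, h.u_zz]
    rw [h.comm_left e1]
    have e2 : ⁅Y x * Y x', Y y⁆ = (Y x * ⁅Y x', Y y⁆ * (Y x)⁻¹) * ⁅Y x, Y y⁆ := by
      simp only [commutatorElement_def]; group
    rw [e2, hc _ (hk x' y)]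
    exact (Subgroup.mem_center_iff.1 (hk x y) _)
  have h2 : ∀ x y y', β x (y + y') = β x y * β x y' := by
    intro x y y'
    apply Subtype.ext
    show ⁅Y x, Y (y + y')⁆ = ⁅Y x, Y y⁆ * ⁅Y x, Y y'⁆
    have e1 : σ (Y (y + y')) = σ (Y y * Y y') := by rw [map_mul, hY, hY, hY, h.u_zz]
    rw [h.comm_right e1]
    have e2 : ⁅Y x, Y y * Y y'⁆ = ⁅Y x, Y y⁆ * (Y y * ⁅Y x, Y y'⁆ * (Y y)⁻¹) := by
      simp only [commutatorElement_def]; group
    rw [e2, hc _ (hk x y')]
  have hinv : ∀ l : F, l ≠ 0 → ∀ x y, β (l ^ 2 * x) (l ^ 2 * y) = β x y := by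
    intro l hl x y
    apply Subtype.ext
    show ⁅Y (l ^ 2 * x), Y (l ^ 2 * y)⁆ = ⁅Y x, Y y⁆
    obtain ⟨t, ht⟩ := h.s_surj2 (l ^ 2) (pow_ne_zero _ hl)
    obtain ⟨D, hD⟩ := h.surj (d t)
    have e1 : ∀ z, σ (Y (l ^ 2 * z)) = σ (D * Y z * D⁻¹) := by
      intro z
      rw [h.d_inv_conj t 0 z _ D hD (hY z), hY, mul_zero, ht]
    rw [h.comm_left (e1 x), h.comm_right (e1 y)]
    have e2 : ⁅D * Y x * D⁻¹, D * Y y * D⁻¹⁆ = D * ⁅Y x, Y y⁆ * D⁻¹ := by
      simp only [commutatorElement_def]; group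
    rw [e2, hc _ (hk x y)]
  have halt : ∀ x, β x x = 1 := by
    intro x
    apply Subtype.ext
    show ⁅Y x, Y x⁆ = 1
    exact commutatorElement_self _
  have e0 : ⁅w, w'⁆ = ⁅Y b, Y b'⁆ := by
    rw [h.comm_left (g' := Y b) (by rw [hw, hY]), h.comm_right (w' := Y b') (by rw [hw', hY])]
  rw [e0]
  exact congrArg Subtype.val (biadd_trivial β h1 h2 hinv halt h4 h9 b b')

/-- Step 2: the preimage of `Z(T)` is central in the preimage of `T`. -/
theorem W_central (h4 : Fintype.card F ≠ 4) (h9 : Fintype.card F ≠ 9) (p f : ℕ) [Fact p.Prime] [CharP F p]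
    (hcard : Fintype.card F = p ^ f) (hf : 0 < f) (hnot : ∀ i < f, ¬ (Fintype.card F - 1) ∣ p ^ i + (s + 1))
    {g w : Γ} {a b t : F} (hg : σ g = u a b) (hw : σ w = u 0 t) : ⁅g, w⁆ = 1 := by
  classical
  choose X hX using fun x : F => h.surj (u x 0)
  choose Y hY using fun x : F => h.surj (u 0 x)
  have hk : ∀ x y, ⁅X x, Y y⁆ ∈ Subgroup.center Γ := by
    intro x y
    apply h.cen
    rw [MonoidHom.mem_ker, map_commutatorElement, hX, hY, h.comm_u]
    simp only [h.zero_pow', zero_mul, mul_zero, add_zero, h.u_zero]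
  letI : CommGroup (Subgroup.center Γ) :=
    { (inferInstance : Group (Subgroup.center Γ)) with
      mul_comm := fun a b => Subtype.ext (Subgroup.mem_center_iff.1 a.2 b).symm }
  let β : F → F → Subgroup.center Γ := fun x y => ⟨⁅X x, Y y⁆, hk x y⟩
  have hc : ∀ {c : Γ} (e : Γ), c ∈ Subgroup.center Γ → e * c * e⁻¹ = c := by
    intro c e hc'
    rw [Subgroup.mem_center_iff.1 hc' e, mul_inv_cancel_right]
  -- independence of the second coordinate in the first variable
  have hindep : ∀ {g g' w : Γ} {a b₁ b₂ t : F}, σ g = u a b₁ → σ g' = u a b₂ → σ w = u 0 t → ⁅g, w⁆ = ⁅g', w⁆ := by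
    intro g g' w a b₁ b₂ t h1 h2 h3
    have e1 : σ (g⁻¹ * g') = u 0 (b₂ - b₁) := by
      rw [map_mul, map_inv, h1, h2, inv_mul_eq_iff_eq_mul, h.u_az]
      congr 1
      ring
    have e2 : ⁅g⁻¹ * g', w⁆ = 1 := h.W_comm h4 h9 e1 h3
    have e3 : g' = g * (g⁻¹ * g') := by rw [mul_inv_cancel_left]
    rw [e3]
    generalize g⁻¹ * g' = v at e2 e3
    have e4 : ⁅g * v, w⁆ = (g * ⁅v, w⁆ * g⁻¹) * ⁅g, w⁆ := by
      simp only [commutatorElement_def]; group
    rw [e4, e2]
    group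
  have h1 : ∀ x x' y, β (x + x') y = β x y * β x' y := by
    intro x x' y
    apply Subtype.ext
    show ⁅X (x + x'), Y y⁆ = ⁅X x, Y y⁆ * ⁅X x', Y y⁆
    have e1 : σ (X x * X x') = u (x + x') (x ^ s * x') := by rw [map_mul, hX, hX, h.u_aa]
    rw [hindep (hX _) e1 (hY y)]
    have e2 : ⁅X x * X x', Y y⁆ = (X x * ⁅X x', Y y⁆ * (X x)⁻¹) * ⁅X x, Y y⁆ := by
      simp only [commutatorElement_def]; group
    rw [e2, hc _ (hk x' y)]
    exact (Subgroup.mem_center_iff.1 (hk x y) _)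
  have h2 : ∀ x y y', β x (y + y') = β x y * β x y' := by
    intro x y y'
    apply Subtype.ext
    show ⁅X x, Y (y + y')⁆ = ⁅X x, Y y⁆ * ⁅X x, Y y'⁆
    have e1 : σ (Y (y + y')) = σ (Y y * Y y') := by rw [map_mul, hY, hY, hY, h.u_zz]
    rw [h.comm_right e1]
    have e2 : ⁅X x, Y y * Y y'⁆ = ⁅X x, Y y⁆ * (Y y * ⁅X x, Y y'⁆ * (Y y)⁻¹) := by
      simp only [commutatorElement_def]; group
    rw [e2, hc _ (hk x y')]
  have hinv : ∀ l : F, l ≠ 0 → ∀ x y, β (l * x) (l ^ (s + 1) * y) = β x y := by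
    intro l hl x y
    apply Subtype.ext
    show ⁅X (l * x), Y (l ^ (s + 1) * y)⁆ = ⁅X x, Y y⁆
    obtain ⟨v, hv⟩ := h.s_surj l hl
    obtain ⟨D, hD⟩ := h.surj (d v)
    have hvv : (v : F) * v = l ^ s := by rw [← hv, h.s_sq]; ring
    have e1 : σ (X (l * x)) = σ (D * X x * D⁻¹) := by
      rw [h.d_inv_conj v x 0 _ D hD (hX x), hX, mul_zero, hv]
    have e2 : σ (Y (l ^ (s + 1) * y)) = σ (D * Y y * D⁻¹) := by
      rw [h.d_inv_conj v 0 y _ D hD (hY y), hY, mul_zero, hv, mul_assoc l, hvv]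
      congr 1
      ring
    rw [h.comm_left e1, h.comm_right e2]
    have e3 : ⁅D * X x * D⁻¹, D * Y y * D⁻¹⁆ = D * ⁅X x, Y y⁆ * D⁻¹ := by
      simp only [commutatorElement_def]; group
    rw [e3, hc _ (hk x y)]
  have e0 : ⁅g, w⁆ = ⁅X a, Y t⁆ := by
    rw [h.comm_right (w' := Y t) (by rw [hw, hY]), hindep hg (hX a) (hY t)]
  rw [e0]
  exact congrArg Subtype.val (biadd_twist p f hcard hf β h1 h2 (s + 1) hinv hnot a t)

theorem comm_indep (h4 : Fintype.card F ≠ 4) (h9 : Fintype.card F ≠ 9) (p f : ℕ) [Fact p.Prime] [CharP F p]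
    (hcard : Fintype.card F = p ^ f) (hf : 0 < f) (hnot : ∀ i < f, ¬ (Fintype.card F - 1) ∣ p ^ i + (s + 1))
    {g g' k k' : Γ} {a b₁ b₂ c e₁ e₂ : F} (hg : σ g = u a b₁) (hg' : σ g' = u a b₂) (hk : σ k = u c e₁)
    (hk' : σ k' = u c e₂) : ⁅g, k⁆ = ⁅g', k'⁆ := by
  have e1 : σ (g⁻¹ * g') = u 0 (b₂ - b₁) := by
    rw [map_mul, map_inv, hg, hg', inv_mul_eq_iff_eq_mul, h.u_az]
    congr 1
    ring
  have e2 : σ (k⁻¹ * k') = u 0 (e₂ - e₁) := by
    rw [map_mul, map_inv, hk, hk', inv_mul_eq_iff_eq_mul, h.u_az]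
    congr 1
    ring
  have c1 : ⁅k, g⁻¹ * g'⁆ = 1 := h.W_central h4 h9 p f hcard hf hnot hk e1
  have c2 : ⁅g, k⁻¹ * k'⁆ = 1 := h.W_central h4 h9 p f hcard hf hnot hg e2
  have c3 : ⁅g⁻¹ * g', k⁻¹ * k'⁆ = 1 := h.W_comm h4 h9 e1 e2
  have d1 := commutatorElement_eq_one_iff_commute.1 c1
  have d2 := commutatorElement_eq_one_iff_commute.1 c2
  have d3 := commutatorElement_eq_one_iff_commute.1 c3
  have e3 : g' = g * (g⁻¹ * g') := by rw [mul_inv_cancel_left]
  have e4 : k' = k * (k⁻¹ * k') := by rw [mul_inv_cancel_left]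
  rw [e3, e4]
  generalize g⁻¹ * g' = v at d1 d3 e3
  generalize k⁻¹ * k' = v' at d2 d3 e4
  have d1' : k * v = v * k := d1
  have d2' : g * v' = v' * g := d2
  have d3' : v * v' = v' * v := d3
  have d2i : v' * g⁻¹ = g⁻¹ * v' := by
    have := (Commute.inv_right (show Commute v' g from d2'.symm)).eq
    exact this
  simp only [commutatorElement_def]
  calc g * k * g⁻¹ * k⁻¹ = g * k * (g⁻¹ * v') * (v'⁻¹ * k⁻¹) := by group
    _ = g * k * (v' * g⁻¹) * (v'⁻¹ * k⁻¹) := by rw [d2i]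
    _ = g * k * (v * v' * v⁻¹) * g⁻¹ * (v'⁻¹ * k⁻¹) := by
        rw [d3']; group
    _ = g * (k * v) * v' * v⁻¹ * g⁻¹ * (v'⁻¹ * k⁻¹) := by group
    _ = g * (v * k) * v' * v⁻¹ * g⁻¹ * (v'⁻¹ * k⁻¹) := by rw [d1']
    _ = g * v * (k * v') * (g * v)⁻¹ * (k * v')⁻¹ := by group

/-- The main local statement: a central involution lying in every subgroup containing the commutators of the
preimage of `T` is trivial. -/
theorem eq_one (h4 : Fintype.card F ≠ 4) (h9 : Fintype.card F ≠ 9) (p f : ℕ) [Fact p.Prime] [CharP F p]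
    (hcard : Fintype.card F = p ^ f) (hf : 0 < f) (hnot : ∀ i < f, ¬ (Fintype.card F - 1) ∣ p ^ i + (s + 1))
    (hodd : Odd (Nat.card Fˣ)) {a₀ : Γ} (ha : σ a₀ = 1) (ha2 : a₀ * a₀ = 1)
    (hc : ∀ C : Subgroup Γ, (∀ g k : Γ, ∀ a b c e : F, σ g = u a b → σ k = u c e → ⁅g, k⁆ ∈ C) → a₀ ∈ C) : a₀ = 1 := by
  classical
  choose X hX using fun x : F => h.surj (u x 0)
  choose D hD using fun l : Fˣ => h.surj (d l)
  -- the subgroup `W`
  let W : Subgroup Γ :=
    { carrier := {w | ∃ b, σ w = u 0 b}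
      one_mem' := ⟨0, by rw [map_one, h.u_zero]⟩
      mul_mem' := by
        rintro w w' ⟨b, hb⟩ ⟨b', hb'⟩
        exact ⟨b + b', by rw [map_mul, hb, hb', h.u_zz]⟩
      inv_mem' := by
        rintro w ⟨b, hb⟩
        refine ⟨b, ?_⟩
        rw [map_inv, hb, inv_eq_iff_mul_eq_one, h.u_zz, ← h.u_zero]
        congr 1
        linear_combination b * h.two }
  have hWmem : ∀ w, w ∈ W ↔ ∃ b, σ w = u 0 b := fun w => Iff.rfl
  letI : CommGroup W :=
    { (inferInstance : Group W) with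
      mul_comm := fun a b => by
        apply Subtype.ext
        obtain ⟨x, hx⟩ := (hWmem a).1 a.2
        obtain ⟨y, hy⟩ := (hWmem b).1 b.2
        exact commutatorElement_eq_one_iff_mul_comm.1 (h.W_comm h4 h9 hx hy) }
  -- conjugation
  have hconjW : ∀ (l : Fˣ) (w : W), D l * (w : Γ) * (D l)⁻¹ ∈ W := by
    rintro l ⟨w, b, hb⟩
    refine ⟨(l : F) ^ s * l * l * b, ?_⟩
    rw [h.d_inv_conj l 0 b _ _ (hD l) hb, mul_zero]
  let c : Fˣ → W →* W := fun l =>
    { toFun := fun w => ⟨D l * (w : Γ) * (D l)⁻¹, hconjW l w⟩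
      map_one' := by apply Subtype.ext; simp
      map_mul' := by
        intro x y
        apply Subtype.ext
        show D l * ((x : Γ) * (y : Γ)) * (D l)⁻¹ = (D l * (x : Γ) * (D l)⁻¹) * (D l * (y : Γ) * (D l)⁻¹)
        group }
  have hcv : ∀ (l v : Fˣ) (w : W), c l (c v w) = c (l * v) w := by
    intro l v w
    apply Subtype.ext
    show D l * (D v * (w : Γ) * (D v)⁻¹) * (D l)⁻¹ = D (l * v) * (w : Γ) * (D (l * v))⁻¹
    have e1 : σ (D l * D v) = σ (D (l * v)) := by rw [map_mul, hD, hD, hD, h.d_mul]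
    rw [← h.conj_eq e1]
    group
  -- the norm
  let N : W →* W :=
    { toFun := fun w => ∏ l : Fˣ, c l w
      map_one' := by simp
      map_mul' := by intro x y; simp [Finset.prod_mul_distrib] }
  have hNdef : ∀ w, N w = ∏ l : Fˣ, c l w := fun w => rfl
  have hNinv : ∀ (v : Fˣ) (w : W), N (c v w) = N w := by
    intro v w
    rw [hNdef, hNdef]
    simp only [hcv]
    exact Fintype.prod_equiv (Equiv.mulRight v) _ _ (fun _ => rfl)
  -- the form
  have hkW : ∀ x y, ⁅X x, X y⁆ ∈ W := by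
    intro x y
    exact ⟨_, by rw [map_commutatorElement, hX, hX, h.comm_u]⟩
  let β : F → F → W := fun x y => N ⟨⁅X x, X y⁆, hkW x y⟩
  have hcentQ : ∀ {g w : Γ} {a b t : F}, σ g = u a b → σ w = u 0 t → g * w = w * g := by
    intro g w a b t h1 h2
    exact commutatorElement_eq_one_iff_mul_comm.1 (h.W_central h4 h9 p f hcard hf hnot h1 h2)
  have h1 : ∀ x x' y, β (x + x') y = β x y * β x' y := by
    intro x x' y
    show N _ = N _ * N _
    rw [← map_mul]
    congr 1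
    apply Subtype.ext
    show ⁅X (x + x'), X y⁆ = ⁅X x, X y⁆ * ⁅X x', X y⁆
    have e1 : σ (X x * X x') = u (x + x') (x ^ s * x') := by rw [map_mul, hX, hX, h.u_aa]
    rw [h.comm_indep h4 h9 p f hcard hf hnot (hX _) e1 (hX y) (hX y)]
    have e2 : ⁅X x * X x', X y⁆ = (X x * ⁅X x', X y⁆ * (X x)⁻¹) * ⁅X x, X y⁆ := by
      simp only [commutatorElement_def]; group
    obtain ⟨t, ht⟩ := (hWmem _).1 (hkW x' y)
    obtain ⟨t', ht'⟩ := (hWmem _).1 (hkW x y)
    rw [e2, hcentQ (hX x) ht, mul_inv_cancel_right]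
    exact commutatorElement_eq_one_iff_mul_comm.1 (h.W_comm h4 h9 ht ht')
  have h2 : ∀ x y y', β x (y + y') = β x y * β x y' := by
    intro x y y'
    show N _ = N _ * N _
    rw [← map_mul]
    congr 1
    apply Subtype.ext
    show ⁅X x, X (y + y')⁆ = ⁅X x, X y⁆ * ⁅X x, X y'⁆
    have e1 : σ (X y * X y') = u (y + y') (y ^ s * y') := by rw [map_mul, hX, hX, h.u_aa]
    rw [h.comm_indep h4 h9 p f hcard hf hnot (hX x) (hX x) (hX _) e1]
    have e2 : ⁅X x, X y * X y'⁆ = ⁅X x, X y⁆ * (X y * ⁅X x, X y'⁆ * (X y)⁻¹) := by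
      simp only [commutatorElement_def]; group
    obtain ⟨t, ht⟩ := (hWmem _).1 (hkW x y')
    rw [e2, hcentQ (hX y) ht, mul_inv_cancel_right]
  have hinv : ∀ l : F, l ≠ 0 → ∀ x y, β (l ^ 2 * x) (l ^ 2 * y) = β x y := by
    intro l hl x y
    obtain ⟨v, hv⟩ := h.s_surj (l ^ 2) (pow_ne_zero _ hl)
    rw [show β x y = N ⟨⁅X x, X y⁆, hkW x y⟩ from rfl, ← hNinv v]
    show N _ = N _
    congr 1
    apply Subtype.ext
    show ⁅X (l ^ 2 * x), X (l ^ 2 * y)⁆ = D v * ⁅X x, X y⁆ * (D v)⁻¹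
    have e1 : ∀ z, σ (D v * X z * (D v)⁻¹) = u (l ^ 2 * z) (((v : F) ^ s * v * v) * 0) := by
      intro z
      rw [h.d_inv_conj v z 0 _ _ (hD v) (hX z), hv]
    rw [h.comm_indep h4 h9 p f hcard hf hnot (hX _) (e1 x) (hX _) (e1 y)]
    simp only [commutatorElement_def]; group
  have halt : ∀ x, β x x = 1 := by
    intro x
    show N _ = 1
    have : (⟨⁅X x, X x⁆, hkW x x⟩ : W) = 1 := by
      apply Subtype.ext
      exact commutatorElement_self _
    rw [this, map_one]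
  have hβ := biadd_trivial β h1 h2 hinv halt h4 h9
  -- the subgroup containing the commutators
  let K : Subgroup Γ := N.ker.map W.subtype
  have hmemK : a₀ ∈ K := by
    apply hc
    intro g k a b c' e hg hk
    rw [h.comm_indep h4 h9 p f hcard hf hnot hg (hX a) hk (hX c')]
    exact ⟨⟨_, hkW a c'⟩, hβ a c', rfl⟩
  obtain ⟨w, hw, hwa⟩ := hmemK
  have hwa' : (w : Γ) = a₀ := hwa
  have hcen0 : a₀ ∈ Subgroup.center Γ := h.cen ha
  have hcw : ∀ l, c l w = w := by
    intro l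
    apply Subtype.ext
    show D l * (w : Γ) * (D l)⁻¹ = w
    rw [hwa', Subgroup.mem_center_iff.1 hcen0 (D l), mul_inv_cancel_right]
  have h3 : N w = w ^ Fintype.card Fˣ := by
    rw [hNdef]
    simp only [hcw]
    rw [Finset.prod_const, Finset.card_univ]
  have h5 : N w = 1 := hw
  rw [Nat.card_eq_fintype_card] at hodd
  obtain ⟨n, hn⟩ := hodd
  have h6 : w * w = 1 := by
    apply Subtype.ext
    show (w : Γ) * w = 1
    rw [hwa', ha2]
  have h7 : w ^ Fintype.card Fˣ = w := by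
    rw [hn, pow_succ, pow_mul, pow_two, h6, one_pow, one_mul]
  rw [h3, h7] at h5
  rw [← hwa', h5]
  rfl

end SzLoc

end local_sz

section assemble

open Cfsg.Agent.SzT

variable {F : Type*} [Field F] [Fintype F]

/-- Lifts of a cyclic subgroup commute. -/
theorem comm_of_cyclic' {G Γ : Type*} [Group G] [Group Γ] (σ : Γ →* G) (hcen : σ.ker ≤ Subgroup.center Γ)
    (R : Subgroup G) (hR : IsCyclic R) {g h : R.comap σ} : ⁅g, h⁆ = 1 := by
  let f : R.comap σ →* R := σ.subgroupComap R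
  have hk : f.ker ≤ Subgroup.center (R.comap σ) := by
    intro a ha
    have h1 : σ (a : Γ) = 1 := congrArg Subtype.val ha
    have h2 : (a : Γ) ∈ Subgroup.center Γ := hcen h1
    rw [Subgroup.mem_center_iff]
    intro b
    apply Subtype.ext
    exact Subgroup.mem_center_iff.1 h2 b
  have := MonoidHom.isMulCommutative_of_isCyclic_of_ker_le_center f hk
  rw [commutatorElement_eq_one_iff_mul_comm]
  exact mul_comm' g h

theorem szLoc {s : ℕ} [hS : SzF F s] {Γ : Type*} [Group Γ] (σ : Γ →* GG s F) (hs : Function.Surjective σ)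
    (hcen : σ.ker ≤ Subgroup.center Γ) : SzLoc σ (uG s) (dG s) s where
  surj := hs
  cen := hcen
  u_mul := uG_mul
  u_zero := uG_zero
  d_mul := dG_mul
  d_conj := dG_conj_uG
  s_pos := by have := hS.s4; omega
  s_surj := by
    intro a ha
    obtain ⟨b, hb⟩ := s_surj (s := s) a
    have hb0 : b ≠ 0 := by
      rintro rfl
      rw [s_zero] at hb
      exact ha hb.symm
    exact ⟨Units.mk0 b hb0, hb⟩
  s_surj2 := by
    intro a ha
    have h1 := pow_s_add_one_surj (s := s) a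
    set c := a ^ (s - 1) with hc
    have hc0 : c ≠ 0 := pow_ne_zero _ ha
    obtain ⟨b, hb⟩ := s_surj (s := s) c
    have hb0 : b ≠ 0 := by
      rintro rfl
      rw [s_zero] at hb
      exact hc0 hb.symm
    refine ⟨Units.mk0 b hb0, ?_⟩
    show b ^ s * b * b = a
    have h2 : b ^ 2 = c ^ s := by rw [← hb]; exact (hS.sq b).symm
    rw [mul_assoc, ← pow_two, h2, hb, ← pow_succ', h1]
  s_sq := hS.sq
  two := two_eq_zero' (s := s)

/-- Stem extensions of the Suzuki groups. -/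
theorem ker_eq_bot_GG {m : ℕ} (hm : 2 ≤ m) (hF : Fintype.card F = 2 ^ (2 * m + 1)) [hS : SzF F (2 ^ (m + 1))]
    {Γ : Type*} [Group Γ] [Finite Γ] (σ : Γ →* GG (2 ^ (m + 1)) F) (hσ : Cfsg.IsStemExtension σ) : σ.ker = ⊥ := by
  classical
  obtain ⟨hs, hcen, hcomm⟩ := hσ
  rw [eq_bot_iff]
  intro a ha
  rw [Subgroup.mem_bot]
  by_contra hne
  have hord : orderOf a ≠ 1 := fun h => hne (orderOf_eq_one_iff.1 h)
  obtain ⟨ℓ, hℓ, hdvd⟩ := Nat.exists_prime_and_dvd hord
  haveI : Fact ℓ.Prime := ⟨hℓ⟩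
  have hbo : orderOf (a ^ (orderOf a / ℓ)) = ℓ := orderOf_pow_orderOf_div (orderOf_pos a).ne' hdvd
  set b := a ^ (orderOf a / ℓ) with hb
  have hbk : b ∈ σ.ker := σ.ker.pow_mem ha _
  have hb1 : σ b = 1 := hbk
  have hbne : b ≠ 1 := by
    intro h
    rw [h, orderOf_one] at hbo
    exact hℓ.one_lt.ne hbo
  have hbc : b ∈ Subgroup.center Γ := hcen hbk
  have hbd : b ∈ commutator Γ := hcomm hbk
  have htr : ∀ R : Subgroup (GG (2 ^ (m + 1)) F), ¬ ℓ ∣ R.index → ∀ hbQ : b ∈ R.comap σ,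
      (⟨b, hbQ⟩ : R.comap σ) ∈ commutator (R.comap σ) := by
    intro R hR hbQ
    apply mem_commutator_of_coprime _ _ hbc hbd
    rw [hbo, Subgroup.index_comap_of_surjective _ hs]
    exact ((Nat.Prime.coprime_iff_not_dvd hℓ).2 hR).symm
  have hmem : ∀ R : Subgroup (GG (2 ^ (m + 1)) F), b ∈ R.comap σ := by
    intro R
    show σ b ∈ R
    rw [hb1]
    exact R.one_mem
  by_cases hℓ2 : ℓ = 2
  · subst hℓ2
    haveI : CharP F 2 := hS.char2
    have hloc := szLoc σ hs hcen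
    have hq32 : 32 ≤ Fintype.card F := by
      rw [hF]
      calc 32 = 2 ^ 5 := by norm_num
        _ ≤ 2 ^ (2 * m + 1) := Nat.pow_le_pow_right (by norm_num) (by omega)
    have h2dvd : 2 ∣ Fintype.card F := by rw [hF]; exact dvd_pow_self 2 (by omega)
    have hidx : ¬ 2 ∣ (Uni (2 ^ (m + 1)) F).index := by
      rw [index_Uni, Nat.prime_two.dvd_mul]
      rintro (h | h)
      · rw [Nat.dvd_add_right (dvd_pow h2dvd (by norm_num))] at h
        omega
      · omega
    have h1 := htr _ hidx (hmem _)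
    have hnot : ∀ i < 2 * m + 1, ¬ (Fintype.card F - 1) ∣ 2 ^ i + (2 ^ (m + 1) + 1) := by
      intro i hi hd
      have h3 := Nat.le_of_dvd (by positivity) hd
      rw [hF] at h3
      have e1 : (2 : ℕ) ^ i ≤ 2 ^ (2 * m) := Nat.pow_le_pow_right (by norm_num) (by omega)
      obtain ⟨A, hA⟩ : ∃ A, A = 2 ^ m := ⟨_, rfl⟩
      have hA4 : 4 ≤ A := by
        rw [hA]
        calc 4 = 2 ^ 2 := by norm_num
          _ ≤ 2 ^ m := Nat.pow_le_pow_right (by norm_num) hm
      have e2 : (2 : ℕ) ^ (2 * m) = A * A := by rw [hA, two_mul, pow_add]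
      have e3 : (2 : ℕ) ^ (m + 1) = 2 * A := by rw [hA, pow_succ]; ring
      have e4 : (2 : ℕ) ^ (2 * m + 1) = 2 * (A * A) := by rw [pow_succ, e2]; ring
      rw [e4, e3] at h3
      rw [e2] at e1
      have : A * A ≥ 4 * A := Nat.mul_le_mul_right A hA4
      omega
    have hodd : Odd (Nat.card Fˣ) := by
      rw [Nat.card_eq_fintype_card, Fintype.card_units]
      obtain ⟨c, hc⟩ := h2dvd
      exact ⟨c - 1, by omega⟩
    have h5 : b = 1 := by
      apply hloc.eq_one (by omega) (by omega) 2 (2 * m + 1) hF (by omega) hnot hodd hb1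
      · have : b ^ 2 = 1 := by rw [← hbo]; exact pow_orderOf_eq_one b
        rwa [pow_two] at this
      · intro C hC
        have h6 : commutator ((Uni (2 ^ (m + 1)) F).comap σ) ≤ C.comap ((Uni (2 ^ (m + 1)) F).comap σ).subtype := by
          rw [commutator_def, Subgroup.commutator_le]
          rintro ⟨g, hg⟩ - ⟨k, hk⟩ -
          obtain ⟨x, y, hxy⟩ : ∃ x y, σ g = uG _ x y := hg
          obtain ⟨x', y', hxy'⟩ : ∃ x y, σ k = uG _ x y := hk
          exact hC g k _ _ _ _ hxy hxy'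
        exact h6 h1
    exact hbne h5
  · let P : Sylow ℓ (GG (2 ^ (m + 1)) F) := default
    have hcyc : IsCyclic (P : Subgroup (GG (2 ^ (m + 1)) F)) := sylow_cyclic hℓ2 P
    have h1 := htr _ P.not_dvd_index (hmem _)
    have h2 : commutator ((P : Subgroup (GG (2 ^ (m + 1)) F)).comap σ) = ⊥ := by
      rw [eq_bot_iff, commutator_def, Subgroup.commutator_le]
      intro x _ y _
      rw [Subgroup.mem_bot]
      exact comm_of_cyclic' σ hcen _ hcyc
    rw [h2, Subgroup.mem_bot] at h1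
    exact hbne (congrArg Subtype.val h1)

/-- **S2111.** -/
theorem hasCyclic_Sz {m : ℕ} (hm : 2 ≤ m) (hF : Fintype.card F = 2 ^ (2 * m + 1)) :
    Cfsg.HasCyclicSchurMultiplier ↥(Cfsg.Lie.Sz F (2 ^ (m + 1))) 1 := by
  haveI hS : SzF F (2 ^ (m + 1)) := szF_of_card (by omega) hF
  let e := szEquiv (2 ^ (m + 1)) F
  haveI : Finite ↥(Cfsg.Lie.Sz F (2 ^ (m + 1))) := Finite.of_equiv _ e.toEquiv
  refine Cfsg.Agent.Lib.KnownSimple.Schur.hasCyclic_one fun Γ _ _ σ hσ => ?_
  let σ' : Γ →* GG (2 ^ (m + 1)) F := e.symm.toMonoidHom.comp σ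
  have hker : σ'.ker = σ.ker := by
    ext x
    rw [MonoidHom.mem_ker, MonoidHom.mem_ker]
    show e.symm (σ x) = 1 ↔ σ x = 1
    exact EmbeddingLike.map_eq_one_iff
  have hσ' : Cfsg.IsStemExtension σ' := by
    refine ⟨e.symm.surjective.comp hσ.1, ?_, ?_⟩
    · rw [hker]; exact hσ.2.1
    · rw [hker]; exact hσ.2.2
  rw [← hker]
  exact ker_eq_bot_GG hm hF σ' hσ'

end assemble

end Cfsg.Agent.Lib.SchurLocal
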